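import Mathlib
import Cfsg.Prelude.Def_Characters
import Cfsg.Agent.Char.Inner
import Cfsg.Agent.Char.InducedRep

/-!
# Artin's induction theorem
-/

set_option autoImplicit false

namespace Cfsg.Agent.Char

open Cfsg Cfsg.Agent.Char
open scoped ComplexConjugate

variable {G : Type*} [Group G] [Fintype G]

/-- The constant `|G|` is an integral combination of permutation characters on the cosets of
cyclic subgroups. -/
theorem card_mem_of_indFun_one_cyclic_mem (V : AddSubgroup (G → ℂ))
    (hV : ∀ A : Subgroup G, IsCyclic A → indFun A (fun _ => 1) ∈ V) :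
    (fun _ : G => (Nat.card G : ℂ)) ∈ V := by
  classical
  let f : Subgroup G → G → ℂ := fun A g =>
    ∑ x : G, if Subgroup.zpowers (x⁻¹ * g * x) = A then 1 else 0
  have hsum : ∀ A : Subgroup G, ∑ B ∈ Finset.univ.filter (· ≤ A), f B =
      (Nat.card A) • indFun A (fun _ => 1) := by
    intro A
    funext g
    rw [Pi.smul_apply, indFun_apply, nsmul_eq_mul, mul_inv_cancel_left₀ (card_ne_zero A),
      Finset.sum_apply, Finset.sum_comm]
    refine Finset.sum_congr rfl fun x _ => ?_
    rw [Finset.sum_ite_eq, extendByZero_apply]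
    simp
  have hf0 : ∀ A : Subgroup G, ¬ IsCyclic A → f A = 0 := by
    intro A hA
    funext g
    refine Finset.sum_eq_zero fun x _ => if_neg ?_
    rintro rfl
    exact hA inferInstance
  have hf : ∀ A : Subgroup G, f A ∈ V := by
    intro A
    induction A using WellFoundedLT.induction with
    | _ A ih =>
      by_cases hA : IsCyclic A
      · have h1 := hsum A
        rw [← Finset.add_sum_erase _ _ (show A ∈ Finset.univ.filter (· ≤ A) by simp),
          ← eq_sub_iff_add_eq] at h1
        rw [h1]
        refine V.sub_mem (V.nsmul_mem (hV A hA) _) (V.sum_mem fun B hB => ih B ?_)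
        simp only [Finset.mem_erase, Finset.mem_filter, Finset.mem_univ, true_and] at hB
        exact lt_of_le_of_ne hB.2 hB.1
      · rw [hf0 A hA]; exact V.zero_mem
  have := V.sum_mem fun B (_ : B ∈ Finset.univ) => hf B
  convert this using 1
  funext g
  rw [Finset.sum_apply, Finset.sum_comm]
  simp

/-- Artin's induction theorem. -/
theorem card_smul_mem_of_indFun_linear_cyclic_mem (V : AddSubgroup (G → ℂ))
    (hV : ∀ A : Subgroup G, IsCyclic A → ∀ lam : A →* ℂˣ, indFun A (fun a => (lam a : ℂ)) ∈ V)
    {χ : G → ℂ} (hχ : IsCharacter G χ) : (Nat.card G : ℂ) • χ ∈ V := by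
  have := card_mem_of_indFun_one_cyclic_mem (V.comap (AddMonoidHom.mulRight χ)) (fun A hA => by
    have h1 : indFun A (fun a => χ a) ∈ V := by
      refine (hχ.restrict A).induction_on (P := fun φ => indFun A φ ∈ V) ?_ ?_
      · rw [indFun_zero]; exact V.zero_mem
      · intro ξ θ hξ _ ih
        rw [indFun_add]
        let _ := hA.commGroup
        obtain ⟨lam, rfl⟩ := hξ.exists_linear_of_comm mul_comm
        exact V.add_mem (hV A hA lam) ih
    rw [indFun_restrict A hχ.isClassFunction] at h1
    exact h1)
  exact this

end Cfsg.Agent.Char
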