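import Mathlib
import Cfsg.Agent.Char.Triple
import Cfsg.Agent.Char.Restrict
import Cfsg.Agent.Grp.Subnormal

/-!
Towards Berger's theorem: an irreducibly induced character `ϑ^G` from a maximal subgroup `H` with
`ϑ_L` irreducible and `G / L` solvable is not homogeneous on some normal subgroup containing `L`.
-/

set_option autoImplicit false

namespace Cfsg.Agent.Char

open Cfsg Cfsg.Agent.Char
open scoped ComplexConjugate

variable {G : Type*} [Group G]

/-- The inclusion of `L` in `H ∩ M`, viewed inside `M`. -/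
def inclSubgroupOf {L H M : Subgroup G} (hLH : L ≤ H) (hLM : L ≤ M) : L →* H.subgroupOf M :=
  (Subgroup.inclusion hLM).codRestrict _ fun x => hLH x.2

/-- The inclusion of `H ∩ M` (viewed inside `M`) in `H`. -/
def subgroupOfToLeft (H M : Subgroup G) : H.subgroupOf M →* H :=
  (M.subtype.comp (H.subgroupOf M).subtype).codRestrict _ fun x => x.2

theorem inf_le_of_inner_restrict_indFun [Fintype G] {L H M : Subgroup G} [hM : M.Normal]
    [Fintype M] (hLH : L ≤ H) (hLM : L ≤ M) (hcore : H.normalCore ≤ L)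
    (hMH : ∀ g : G, ∃ m ∈ M, ∃ h ∈ H, g = m * h) {ϑ : H → ℂ} (hϑ : IsCharacter H ϑ)
    (hϑL : IsIrrCharacter L (fun x => ϑ ⟨x, hLH x.2⟩))
    (hin : classInner (fun m : M => indFun H ϑ m) (fun m : M => indFun H ϑ m) = H.index) :
    M ⊓ H ≤ L := by
  have := Fintype.ofFinite (H.subgroupOf M)
  have := Fintype.ofFinite (inclSubgroupOf hLH hLM).range
  have hc : IsCharacter (H.subgroupOf M) (fun x => ϑ ⟨(x : M), x.2⟩) :=
    hϑ.comp (subgroupOfToLeft H M)
  have hi : IsIrrCharacter (H.subgroupOf M) (fun x => ϑ ⟨(x : M), x.2⟩) :=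
    isIrr_of_comp_isIrr hc (inclSubgroupOf hLH hLM) hϑL
  have hχ := isCharacter_indFun H hϑ
  have hmk := restrict_indFun_of_mul H M hMH hϑ.isClassFunction
  have h1 : classInner (fun x : H.subgroupOf M => indFun H ϑ (x : M))
      (fun x => ϑ ⟨(x : M), x.2⟩) = H.index := by
    rw [← hin]
    conv_rhs => enter [2]; rw [hmk]
    rw [classInner_indFun_right _ _ (hχ.restrict M).isClassFunction]
  have h2 := eq_smul_of_inner_mul_one_eq ((hχ.restrict M).restrict (H.subgroupOf M)) hi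
    (by rw [h1]; exact (indFun_one H ϑ).symm)
  rw [h1] at h2
  have h3 : ∀ x : M, x ∉ H.subgroupOf M → indFun H ϑ x = 0 := by
    rw [vanish_off_iff_inner_restrict, classInner_self_of_eq_smul hi h2, hin,
      show (H.subgroupOf M).index = H.index from relIndex_eq_index_of_mul hMH, sq]
  have h4 : ∀ x : H.subgroupOf M, x ∉ (inclSubgroupOf hLH hLM).range →
      ϑ ⟨(x : M), x.2⟩ = 0 := by
    intro x hx
    by_contra hne
    apply hx
    have hxL : ((x : M) : G) ∈ L := by
      refine hcore fun g => ?_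
      by_contra hg
      have h5 := h3 ⟨g * (x : M) * g⁻¹, hM.conj_mem _ (x : M).2 g⟩ hg
      have h6 := congrFun h2 x
      simp only [Pi.smul_apply, smul_eq_mul] at h5 h6
      rw [hχ.isClassFunction, h6] at h5
      exact mul_ne_zero (Nat.cast_ne_zero.2 Subgroup.FiniteIndex.index_ne_zero) hne h5
    exact ⟨⟨_, hxL⟩, rfl⟩
  replace h4 := (vanish_off_iff_inner_restrict (inclSubgroupOf hLH hLM).range
    (fun x : H.subgroupOf M => ϑ ⟨(x : M), x.2⟩)).1 h4
  rw [hi.inner_self, (isIrr_range_of_comp (inclSubgroupOf hLH hLM) hc hϑL).inner_self, mul_one,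
    eq_comm, Nat.cast_eq_one, Subgroup.index_eq_one] at h4
  intro x hx
  obtain ⟨y, hy⟩ : (⟨⟨x, hx.1⟩, hx.2⟩ : H.subgroupOf M) ∈ (inclSubgroupOf hLH hLM).range := by
    rw [h4]; trivial
  have : (y : G) = x := congrArg (fun z : H.subgroupOf M => ((z : M) : G)) hy
  exact this ▸ y.2

/-- If `H` is maximal with core `L`, `M` is normal, not contained in `H`, and `M / L` is a
`p`-group, then `M ∩ H ≤ L`. -/
theorem inf_le_normalCore_of_pow_mem [Finite G] {H M : Subgroup G} [hM : M.Normal]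
    (hmax : IsCoatom H) (hLM : H.normalCore ≤ M) (hMH : ¬ M ≤ H) {p : ℕ} (hp : p.Prime)
    (hpow : ∀ m ∈ M, ∃ k, m ^ p ^ k ∈ H.normalCore) : M ⊓ H ≤ H.normalCore := by
  have := Fact.mk hp
  set f := QuotientGroup.mk' H.normalCore with hf
  have hfs : Function.Surjective f := QuotientGroup.mk'_surjective _
  have hP : IsPGroup p (M.map f) := by
    rintro ⟨_, m, hm, rfl⟩
    obtain ⟨k, hk⟩ := hpow m hm
    refine ⟨k, Subtype.ext ?_⟩
    exact (QuotientGroup.eq_one_iff _).2 hk
  have hcm : ((M ⊓ H).map f).comap f = M ⊓ H := by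
    rw [Subgroup.comap_map_eq, hf, QuotientGroup.ker_mk', sup_eq_left]
    exact le_inf hLM H.normalCore_le
  have hlt : (M ⊓ H).map f < M.map f := by
    refine lt_of_le_of_ne (Subgroup.map_mono inf_le_left) fun h => hMH ?_
    refine le_trans ?_ (inf_le_right : M ⊓ H ≤ H)
    rw [← hcm, h]
    exact Subgroup.le_comap_map _ _
  obtain ⟨y, ⟨⟨x, hx, rfl⟩, hy2⟩, hy3⟩ :=
    SetLike.exists_of_lt (Grp.lt_inf_normalizer_of_isNilpotent hP.isNilpotent hlt)
  have hxN : x ∈ Subgroup.normalizer ((M ⊓ H : Subgroup G) : Set G) := by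
    rw [← hcm, ← Subgroup.comap_normalizer_eq_of_surjective _ hfs]
    exact hy2
  have hHN : H ≤ Subgroup.normalizer ((M ⊓ H : Subgroup G) : Set G) := by
    intro h hh
    rw [Subgroup.mem_normalizer_iff]
    intro y
    constructor
    · exact fun hy => ⟨hM.conj_mem _ hy.1 _, H.mul_mem (H.mul_mem hh hy.2) (H.inv_mem hh)⟩
    · intro hy
      have h1 := hM.conj_mem _ hy.1 h⁻¹
      have h2 := H.mul_mem (H.mul_mem (H.inv_mem hh) hy.2) hh
      simp only [mul_assoc, inv_mul_cancel_left, inv_inv, inv_mul_cancel, mul_one] at h1 h2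
      exact ⟨h1, h2⟩
  have htop := hmax.2 _ (lt_of_le_of_ne hHN fun h => hy3 ⟨x, ⟨hx, h ▸ hxN⟩, rfl⟩)
  have : (M ⊓ H).Normal := Subgroup.normalizer_eq_top_iff.1 htop
  exact Subgroup.normal_le_normalCore.2 inf_le_right

theorem isSolvable_quotient_of_le {L M : Subgroup G} [L.Normal] [M.Normal] (h : L ≤ M)
    (hs : Group.IsSolvable (G ⧸ L)) : Group.IsSolvable (G ⧸ M) :=
  Group.isSolvable_of_surjective (f := QuotientGroup.map L M (MonoidHom.id G) h) fun q => by
    obtain ⟨g, rfl⟩ := QuotientGroup.mk_surjective q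
    exact ⟨g, rfl⟩

theorem exists_normal_not_homogeneous [Fintype G] (L H : Subgroup G) [L.Normal] (hLH : L ≤ H)
    (hmax : IsCoatom H) (hsolv : Group.IsSolvable (G ⧸ L)) (ϑ : H → ℂ)
    (hϑ : IsIrrCharacter H ϑ) (hϑL : IsIrrCharacter L (fun x : L => ϑ ⟨(x : G), hLH x.2⟩))
    (hind : IsIrrCharacter G (indFun H ϑ)) :
    ∃ M : Subgroup G, M.Normal ∧ L ≤ M ∧ ¬ ∃ (φ : M → ℂ) (e : ℕ), IsIrrCharacter M φ ∧
      (fun m : M => indFun H ϑ m) = (e : ℂ) • φ := by
  by_contra hcon
  push Not at hcon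
  have hLC : L ≤ H.normalCore := Subgroup.normal_le_normalCore.2 hLH
  set C := H.normalCore with hC
  have hCH : C ≤ H := H.normalCore_le
  have := Fintype.ofFinite H
  have := Fintype.ofFinite C
  have hϑC : IsIrrCharacter C (fun x : C => ϑ ⟨(x : G), hCH x.2⟩) :=
    isIrr_of_comp_isIrr (hϑ.isCharacter.comp (Subgroup.inclusion hCH)) (Subgroup.inclusion hLC) hϑL
  have hidx : H.index ≠ 1 := fun h => hmax.1 (Subgroup.index_eq_one.1 h)
  obtain ⟨p, K, hp, hK, hCK, -, hKp, ⟨k, hk⟩, -⟩ := exists_chief_factor_above C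
    (fun h => hmax.1 (top_le_iff.1 (h ▸ hCH))) (isSolvable_quotient_of_le hLC hsolv)
  have := Fintype.ofFinite K
  have hKH : ¬ K ≤ H := fun h => hCK.not_ge (Subgroup.normal_le_normalCore.2 h)
  have hsup : K ⊔ H = ⊤ := hmax.2 _ (lt_of_le_of_ne le_sup_right fun h => hKH (h ▸ le_sup_left))
  have hmul := exists_mul_of_sup_eq_top hsup
  have hinf : K ⊓ H ≤ C := inf_le_normalCore_of_pow_mem hmax hCK.le hKH hp
    fun m hm => ⟨1, by rw [pow_one]; exact hKp m hm⟩
  have hidxp : H.index = p ^ k := by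
    rw [← relIndex_eq_index_of_mul hmul, ← hk, ← Subgroup.inf_relIndex_right, inf_comm,
      le_antisymm hinf (le_inf hCK.le hCH)]
  -- the restriction to `C`
  have hχC : classInner (fun x : C => indFun H ϑ x) (fun x : C => ϑ ⟨(x : G), hCH x.2⟩) =
      H.index := by
    obtain ⟨φ, e, hφ, he⟩ := hcon C inferInstance hLC
    have h1 : classInner (fun h : H => indFun H ϑ h) ϑ ≠ 0 := by
      rw [← classInner_indFun_right _ _ hind.isClassFunction, hind.inner_self]
      exact one_ne_zero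
    have h2 := inner_comp_ne_zero_of_sub (Subgroup.inclusion hCH) hϑ.isCharacter
      ((hind.isCharacter.restrict H).sub_irr hϑ h1) hϑC.isCharacter
      (by change classInner (fun x : C => ϑ ⟨(x : G), hCH x.2⟩) _ ≠ 0
          rw [hϑC.inner_self]; exact one_ne_zero)
    change classInner (fun x : C => indFun H ϑ x) _ ≠ 0 at h2
    rw [he, classInner_smul_left] at h2 ⊢
    have h3 := hφ.eq_of_inner_ne_zero hϑC (right_ne_zero_of_mul h2)
    have h4 := congrFun he 1
    rw [h3] at h4 ⊢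
    rw [hϑC.inner_self, mul_one]
    exact (mul_right_cancel₀ hϑ.one_ne_zero ((indFun_one H ϑ).symm.trans h4)).symm
  -- the restriction to `K`
  have hχK : classInner (fun x : K => indFun H ϑ x) (fun x : K => indFun H ϑ x) = H.index := by
    have := Fintype.ofFinite (H.subgroupOf K)
    conv_lhs => enter [2]; rw [restrict_indFun_of_mul H K hmul hϑ.isClassFunction]
    rw [classInner_indFun_right _ _ (hind.isCharacter.restrict K).isClassFunction, ← hχC,
      ← classInner_comp_surjective (inclSubgroupOf hCH hCK.le)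
        (fun x => ⟨⟨_, hinf ⟨(x : K).2, x.2⟩⟩, rfl⟩)]
    rfl
  by_cases hKt : K = ⊤
  · subst hKt
    have h1 := classInner_comp_mulEquiv Subgroup.topEquiv (indFun H ϑ) (indFun H ϑ)
    rw [hind.inner_self] at h1
    exact hidx (by exact_mod_cast hχK.symm.trans h1)
  obtain ⟨q, M, hq, hM, hKM, -, hMq, ⟨l, hl⟩, -⟩ := exists_chief_factor_above K hKt
    (isSolvable_quotient_of_le (hLC.trans hCK.le) hsolv)
  have := Fintype.ofFinite M
  have hmul' : ∀ g : G, ∃ m ∈ M, ∃ h ∈ H, g = m * h := fun g => by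
    obtain ⟨m, hm, h⟩ := hmul g
    exact ⟨m, hKM.le hm, h⟩
  suffices hMH : M ⊓ H ≤ C by
    refine hKM.not_ge fun m hm => ?_
    obtain ⟨x, hx, h, hh, rfl⟩ := hmul m
    exact K.mul_mem hx (hCK.le (hMH ⟨(M.mul_mem_cancel_left (hKM.le hx)).1 hm, hh⟩))
  by_cases hpq : p = q
  · subst hpq
    exact inf_le_normalCore_of_pow_mem hmax (hCK.le.trans hKM.le) (fun h => hKH (hKM.le.trans h))
      hp fun m hm => ⟨2, by rw [sq, pow_mul]; exact hKp _ (hMq m hm)⟩
  refine inf_le_of_inner_restrict_indFun hCH (hCK.le.trans hKM.le) le_rfl hmul' hϑ.isCharacter hϑC ?_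
  obtain ⟨ψ, a, hψ, ha⟩ := hcon K hK (hLC.trans hCK.le)
  obtain ⟨η, b, hη, hb⟩ := hcon M hM (hLC.trans (hCK.le.trans hKM.le))
  have := Fintype.ofFinite (K.subgroupOf M)
  have ha2 : a ^ 2 = p ^ k := by
    rw [classInner_self_of_eq_smul hψ ha, hidxp] at hχK
    exact_mod_cast hχK
  have ha0 : a ≠ 0 := by
    rintro rfl
    exact pow_ne_zero k hp.ne_zero (by simpa using ha2.symm)
  have hψ' := isIrr_subgroupOf hKM.le hψ
  have h1 : (b : ℂ) • (fun x : K.subgroupOf M => η x) =
      (a : ℂ) • fun x : K.subgroupOf M => ψ ⟨(x : M), x.2⟩ :=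
    funext fun x => (congrFun hb x).symm.trans (congrFun ha ⟨(x : M), x.2⟩)
  have h2 : classInner (fun x : K.subgroupOf M => η x) (fun x => ψ ⟨(x : M), x.2⟩) ≠ 0 := by
    intro h0
    have h3 := congrArg (classInner · (fun x : K.subgroupOf M => ψ ⟨(x : M), x.2⟩)) h1
    simp only [classInner_smul_left, h0, hψ'.inner_self, mul_zero, mul_one] at h3
    exact ha0 (by exact_mod_cast h3.symm)
  obtain ⟨c, hc, hc'⟩ := exists_deg_eq_mul_dvd_index (K.subgroupOf M) hψ' hη h2
  have h3 : b * c = a := by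
    have h4 := congrFun h1 1
    simp only [Pi.smul_apply, smul_eq_mul, OneMemClass.coe_one] at h4
    rw [hc, ← mul_assoc] at h4
    exact_mod_cast mul_right_cancel₀ hψ'.one_ne_zero h4
  have h4 : c = 1 := by
    have h5 : c ∣ p ^ k := ha2 ▸ (Dvd.intro_left b h3).trans (dvd_pow_self a two_ne_zero)
    have h6 : c ∣ q ^ l := hl ▸ hc'
    exact (Nat.coprime_self c).1 ((Nat.Coprime.coprime_dvd_left h5
      (Nat.coprime_pow_primes k l hp hq hpq)).coprime_dvd_right h6)
  rw [classInner_self_of_eq_smul hη hb, hidxp, ← ha2, ← h3, h4, mul_one]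
  simp

end Cfsg.Agent.Char
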