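import Mathlib
import Cfsg.Agent.Char.Ito

/-! Unitary form of a character; orthonormal bases of common eigenvectors of an abelian group. -/

set_option autoImplicit false

namespace Cfsg.Agent.Char.Unitary

open Cfsg Cfsg.Agent.Char Module
open scoped ComplexConjugate InnerProductSpace

variable {G : Type*} [Group G]

theorem exists_unitary [Finite G] {χ : G → ℂ} (hχ : IsCharacter G χ) :
    ∃ (n : ℕ) (ρ : Representation ℂ G (EuclideanSpace ℂ (Fin n))),
      (∀ g v, ‖ρ g v‖ = ‖v‖) ∧ ρ.character = χ := by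
  obtain ⟨n, ρ, rfl⟩ := hχ
  have := Fintype.ofFinite G
  let T : (Fin n → ℂ) →ₗ[ℂ] EuclideanSpace ℂ (G × Fin n) :=
    (WithLp.linearEquiv 2 ℂ _).symm.toLinearMap ∘ₗ
      LinearMap.pi fun x => LinearMap.proj x.2 ∘ₗ ρ x.1
  have hTa : ∀ v x, T v x = ρ x.1 v x.2 := fun v x => rfl
  have hT : Function.Injective T := by
    intro v w h
    funext i
    have := hTa v (1, i)
    rw [h, hTa] at this
    simpa using this.symm
  let e := (LinearEquiv.ofInjective T hT).trans
    (stdOrthonormalBasis ℂ (LinearMap.range T)).repr.toLinearEquiv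
  have he : ∀ v, ‖e v‖ = ‖T v‖ := fun v => by
    simp only [e, LinearEquiv.trans_apply, LinearIsometryEquiv.coe_toLinearEquiv,
      LinearIsometryEquiv.norm_map]
    rfl
  refine ⟨_, (e.conjRingEquiv).toMonoidHom.comp ρ, fun g v => ?_, ?_⟩
  · obtain ⟨w, rfl⟩ := e.surjective v
    have h1 : ((e.conjRingEquiv).toMonoidHom.comp ρ) g (e w) = e (ρ g w) := by
      change e (ρ g (e.symm (e w))) = _
      rw [e.symm_apply_apply]
    rw [h1, he, he, EuclideanSpace.norm_eq, EuclideanSpace.norm_eq]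
    congr 1
    refine Fintype.sum_equiv ((Equiv.mulRight g).prodCongr (Equiv.refl _)) _ _ fun x => ?_
    simp [hTa]
  · funext g
    exact LinearMap.trace_conj' (ρ g) e

variable {E : Type*} [NormedAddCommGroup E] [InnerProductSpace ℂ E] [FiniteDimensional ℂ E]
  {ρ : Representation ℂ G E}

omit [FiniteDimensional ℂ E] in
theorem inner_map (hρ : ∀ g v, ‖ρ g v‖ = ‖v‖) (g : G) (v w : E) : ⟪ρ g v, ρ g w⟫_ℂ = ⟪v, w⟫_ℂ :=
  (LinearIsometry.mk (ρ g) (hρ g)).inner_map_map v w

omit [FiniteDimensional ℂ E] in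
theorem norm_eigenvalue (hρ : ∀ g v, ‖ρ g v‖ = ‖v‖) {g : G} {v : E} (hv : v ≠ 0) {a : ℂ}
    (h : ρ g v = a • v) : ‖a‖ = 1 := by
  have h1 := hρ g v
  rw [h, norm_smul] at h1
  exact mul_right_cancel₀ (norm_ne_zero_iff.2 hv) (h1.trans (one_mul _).symm)

omit [FiniteDimensional ℂ E] in
/-- Eigenvectors for different eigenvalues are orthogonal. -/
theorem inner_eq_zero (hρ : ∀ g v, ‖ρ g v‖ = ‖v‖) {g : G} {v w : E} {a b : ℂ}
    (hv : ρ g v = a • v) (hw : ρ g w = b • w) (hab : a ≠ b) : ⟪v, w⟫_ℂ = 0 := by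
  by_cases h0 : v = 0
  · simp [h0]
  have ha := norm_eigenvalue hρ h0 hv
  have h1 := inner_map hρ g v w
  rw [hv, hw, inner_smul_left, inner_smul_right] at h1
  have h2 : a * conj a = 1 := by rw [Complex.mul_conj, Complex.normSq_eq_norm_sq, ha]; simp
  have h3 : (b - a) * ⟪v, w⟫_ℂ = 0 := by
    linear_combination a * h1 - b * ⟪v, w⟫_ℂ * h2
  exact (mul_eq_zero.1 h3).resolve_left (sub_ne_zero.2 hab.symm)

/-- A finite abelian group of unitary maps has an orthonormal basis of common eigenvectors. -/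
theorem exists_orthonormalBasis [Finite G] (hρ : ∀ g v, ‖ρ g v‖ = ‖v‖)
    (hc : ∀ a b : G, a * b = b * a) :
    ∃ (b : OrthonormalBasis (Fin (finrank ℂ E)) ℂ E) (lam : Fin (finrank ℂ E) → G →* ℂˣ),
      ∀ g i, ρ g (b i) = (lam i g : ℂ) • b i := by
  classical
  have : Fintype (G →* ℂˣ) := Fintype.ofFinite _
  let V : (G →* ℂˣ) → Submodule ℂ E := fun l => ⨅ g, End.eigenspace (ρ g) (l g : ℂ)
  have hV : ∀ l v, v ∈ V l ↔ ∀ g, ρ g v = (l g : ℂ) • v := fun l v => by
    simp only [V, Submodule.mem_iInf, End.mem_eigenspace_iff]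
  have ho : OrthogonalFamily ℂ (fun l => V l) fun l => (V l).subtypeₗᵢ := by
    intro l l' hl v w
    obtain ⟨g, hg⟩ := DFunLike.ne_iff.1 hl
    exact inner_eq_zero hρ ((hV l v).1 v.2 g) ((hV l' w).1 w.2 g) fun e => hg (Units.ext e)
  have hi : DirectSum.IsInternal V := by
    rw [ho.isInternal_iff]
    by_contra hne
    have hinv : ∀ g, (iSup V)ᗮ ≤ ((iSup V)ᗮ).comap (ρ g) := by
      intro g v hv
      rw [Submodule.mem_comap, ← Submodule.iInf_orthogonal, Submodule.mem_iInf]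
      intro l
      rw [Submodule.mem_orthogonal]
      intro u hu
      have h1 : u = ρ g (ρ g⁻¹ u) := by
        rw [← Module.End.mul_apply, ← map_mul, mul_inv_cancel, map_one, Module.End.one_apply]
      rw [h1, inner_map hρ, (hV l u).1 hu, inner_smul_left,
        (Submodule.mem_orthogonal _ _).1 hv u (le_iSup V l hu), mul_zero]
    have : Nontrivial ↥(iSup V)ᗮ := Submodule.nontrivial_iff_ne_bot.2 hne
    obtain ⟨v, l, hv, h⟩ := exists_common_eigenvector_of_comm (ρ.subrepresentation _ hinv) hc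
    have h1 : (v : E) ∈ V l := (hV l v).2 fun g => congrArg Subtype.val (h g)
    have h2 := (Submodule.mem_orthogonal _ _).1 v.2 v (le_iSup V l h1)
    exact hv (Subtype.ext (inner_self_eq_zero.1 h2))
  exact ⟨hi.subordinateOrthonormalBasis rfl ho, fun i => hi.subordinateOrthonormalBasisIndex rfl i ho,
    fun g i => (hV _ _).1 (hi.subordinateOrthonormalBasis_subordinate rfl i ho) g⟩

omit [FiniteDimensional ℂ E] in
theorem norm_le_of_eigenbasis {ι : Type*} [Fintype ι] (b : OrthonormalBasis ι ℂ E) (f : E →ₗ[ℂ] E)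
    (a : ι → ℂ) (h : ∀ i, f (b i) = a i • b i) {s : ℝ} (hs : 0 ≤ s) (ha : ∀ i, ‖a i‖ ≤ s) (v : E) :
    ‖f v‖ ≤ s * ‖v‖ := by
  classical
  have h1 : ∀ i, b.repr (f v) i = a i * b.repr v i := by
    intro i
    conv_lhs => rw [← b.sum_repr v]
    simp only [map_sum, map_smul, h, OrthonormalBasis.repr_self]
    simp [Pi.single_apply, mul_comm]
  rw [← b.repr.norm_map, ← b.repr.norm_map v, EuclideanSpace.norm_eq, EuclideanSpace.norm_eq,
    ← Real.sqrt_sq hs, ← Real.sqrt_mul (sq_nonneg s), Finset.mul_sum]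
  refine Real.sqrt_le_sqrt (Finset.sum_le_sum fun i _ => ?_)
  rw [h1, norm_mul, mul_pow]
  gcongr
  exact ha i

end Cfsg.Agent.Char.Unitary
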