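import Mathlib
import Cfsg.Agent.Char.Unitary
import Cfsg.Agent.Char.ProjLift
import Cfsg.Agent.Char.Quot
import Cfsg.Agent.Block.Principal
import Cfsg.Agent.Block.ModExists
import Cfsg.Agent.Block.Contrib

/-! Blichfeldt's sixty-degree theorem, a pigeonhole lemma on the unit circle, and principal-block
characters of degree prime to a given prime. -/

set_option autoImplicit false
set_option linter.unusedSectionVars false

namespace Cfsg.Agent.Char.Blich60

open Cfsg Cfsg.Agent.Char Cfsg.Agent.Block Subgroup Module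
open scoped InnerProductSpace

/-- **Blichfeldt.** If all eigenvalues of `ρ g` are at distance `< 1` from `c`, then all
conjugates of `g` stabilise the `c`-eigenspace of `ρ g`. -/
theorem conj_mem_eigenspace {G : Type*} [Group G] [Finite G] {E : Type*} [NormedAddCommGroup E]
    [InnerProductSpace ℂ E] [FiniteDimensional ℂ E] {ρ : Representation ℂ G E}
    (hρ : ∀ g v, ‖ρ g v‖ = ‖v‖) {g : G} {c : ℂ} (hc : ‖c‖ = 1) {κ : ℝ} (hκ0 : 0 ≤ κ) (hκ : κ < 1)
    (h : ∀ v, ‖ρ g v - c • v‖ ≤ κ * ‖v‖) (x : G) :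
    ∀ u ∈ End.eigenspace (ρ g) c, ρ (x⁻¹ * g * x) u ∈ End.eigenspace (ρ g) c := by
  set U := End.eigenspace (ρ g) c with hU
  have hmem : ∀ v, v ∈ U ↔ ρ g v = c • v := fun v => End.mem_eigenspace_iff
  let π : E →L[ℂ] E := Uᗮ.starProjection
  have hπ0 : ∀ v, π v = 0 ↔ v ∈ U := fun v => by
    rw [Submodule.starProjection_apply_eq_zero_iff, Submodule.orthogonal_orthogonal]
  have hπle : ∀ v, ‖π v‖ ≤ ‖v‖ := fun v => Uᗮ.norm_starProjection_apply_le v
  have hT : ∀ v, ρ g v - c • v = ρ g (π v) - c • π v := fun v => by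
    have h1 : v - π v ∈ U := by
      have := Uᗮ.sub_starProjection_mem_orthogonal v
      rwa [Submodule.orthogonal_orthogonal] at this
    rw [hmem, map_sub, smul_sub] at h1
    linear_combination (norm := module) h1
  let d : G → ℝ := fun x => ‖LinearMap.toContinuousLinearMap (π.toLinearMap ∘ₗ ρ x ∘ₗ U.subtype)‖
  have h1 : ∀ x, ∀ u ∈ U, ‖π (ρ x u)‖ ≤ d x * ‖u‖ := fun x u hu =>
    (LinearMap.toContinuousLinearMap (π.toLinearMap ∘ₗ ρ x ∘ₗ U.subtype)).le_opNorm ⟨u, hu⟩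
  have h2 : ∀ x (t : ℝ), 0 ≤ t → (∀ u ∈ U, ‖π (ρ x u)‖ ≤ t * ‖u‖) → d x ≤ t := fun x t ht hx =>
    ContinuousLinearMap.opNorm_le_bound _ ht fun u => hx u u.2
  have h0 : ∀ x, 0 ≤ d x := fun x => ContinuousLinearMap.opNorm_nonneg _
  have h3 : ∀ x, d x ≤ 1 := fun x => h2 x 1 zero_le_one fun u _ => by
    rw [one_mul, ← hρ x u]; exact hπle _
  have h4 : ∀ x, d (x⁻¹ * g * x) ≤ κ * d x := fun x =>
    h2 _ _ (mul_nonneg hκ0 (h0 x)) fun u hu => by
      have e1 : π (ρ (x⁻¹ * g * x) u) = π (ρ x⁻¹ (ρ g (ρ x u) - c • ρ x u)) := by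
        have e2 : ρ x⁻¹ (ρ x u) = u := by
          rw [← End.mul_apply, ← map_mul, inv_mul_cancel, map_one, End.one_apply]
        rw [map_sub, map_smul, e2, map_sub, map_smul, (hπ0 u).2 hu, smul_zero, sub_zero,
          map_mul, map_mul, End.mul_apply, End.mul_apply]
      rw [e1]
      refine (hπle _).trans ?_
      rw [hρ, hT, mul_assoc]
      exact (h _).trans (mul_le_mul_of_nonneg_left (h1 x u hu) hκ0)
  have h5 : ∀ x, d x = 0 → ∀ u ∈ U, ρ x u ∈ U := fun x hx u hu => by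
    have := h1 x u hu
    rw [hx, zero_mul] at this
    exact (hπ0 _).1 (norm_le_zero_iff.1 this)
  refine h5 _ ?_
  by_contra hne
  have := Fintype.ofFinite G
  classical
  obtain ⟨x₀, hx₀, hmin⟩ := Finset.exists_min_image
    (Finset.univ.filter fun x : G => d (x⁻¹ * g * x) ≠ 0) (fun x => d (x⁻¹ * g * x))
    ⟨x, Finset.mem_filter.2 ⟨Finset.mem_univ _, hne⟩⟩
  set y := x₀⁻¹ * g * x₀ with hy
  have hy0 : 0 < d y := lt_of_le_of_ne (h0 y) (Finset.mem_filter.1 hx₀).2.symm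
  have hy1 : d y < 1 := by
    have := h4 x₀
    have := h3 x₀
    have := h0 x₀
    nlinarith
  have h6 : d (y⁻¹ * g * y) = 0 := by
    by_contra hne'
    have := hmin y (Finset.mem_filter.2 ⟨Finset.mem_univ _, hne'⟩)
    have := h4 y
    nlinarith
  refine hy0.ne' (le_antisymm (h2 y 0 le_rfl fun u hu => ?_) (h0 y))
  have h7 : ρ (y⁻¹ * g * y) u - c • u ∈ U := U.sub_mem (h5 _ h6 u hu) (U.smul_mem c hu)
  have h8 : ρ y (ρ (y⁻¹ * g * y) u - c • u) = ρ g (ρ y u) - c • ρ y u := by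
    rw [map_sub, map_smul, ← End.mul_apply, ← map_mul, ← End.mul_apply, ← map_mul]
    congr 3
    group
  have h9 : ρ g (ρ y u) - c • ρ y u ∈ Uᗮ := by
    rw [Submodule.mem_orthogonal]
    intro w hw
    have hc0 : c ≠ 0 := by rintro rfl; simp at hc
    have e1 : w = ρ g (c⁻¹ • w) := by
      rw [map_smul, (hmem w).1 hw, smul_smul, inv_mul_cancel₀ hc0, one_smul]
    have e2 : ⟪w, ρ g (ρ y u)⟫_ℂ = c * ⟪w, ρ y u⟫_ℂ := by
      conv_lhs => rw [e1]
      rw [Unitary.inner_map hρ, inner_smul_left, map_inv₀, ← Complex.inv_eq_conj hc, inv_inv]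
    rw [inner_sub_right, inner_smul_right, e2, sub_self]
  have h10 := h1 y _ h7
  rw [h8, (Submodule.starProjection_eq_self_iff (K := Uᗮ)).2 h9, ← hρ y (ρ _ u - _), h8] at h10
  have h11 : ‖ρ g (ρ y u) - c • ρ y u‖ = 0 := by
    have := norm_nonneg (ρ g (ρ y u) - c • ρ y u)
    nlinarith
  rw [(hπ0 _).2 ((hmem _).2 (sub_eq_zero.1 (norm_eq_zero.1 h11))), norm_zero, zero_mul]

theorem norm_sub_lt_one {x y : ℂ} (hx : ‖x‖ = 1) (hy : ‖y‖ = 1)
    (h : ⌊-3 * x.arg / Real.pi⌋ = ⌊-3 * y.arg / Real.pi⌋) : ‖x - y‖ < 1 := by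
  have hpi := Real.pi_pos
  have h1 := Int.abs_sub_lt_one_of_floor_eq_floor h
  have hx' := Complex.norm_mul_exp_arg_mul_I x
  have hy' := Complex.norm_mul_exp_arg_mul_I y
  rw [hx, Complex.ofReal_one, one_mul] at hx'
  rw [hy, Complex.ofReal_one, one_mul] at hy'
  generalize x.arg = a at h1 hx'
  generalize y.arg = b at h1 hy'
  have h2 : |(a - b) / 2| < Real.pi / 6 := by
    rw [← sub_div, ← mul_sub, abs_div, abs_mul, abs_of_pos hpi, div_lt_one hpi] at h1
    rw [abs_div]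
    norm_num at h1 ⊢
    linarith
  have e : x - y = y * (Complex.exp (Complex.I * (a - b : ℝ)) - 1) := by
    rw [mul_sub, mul_one, ← hx', ← hy', ← Complex.exp_add]
    congr 2
    push_cast
    ring
  rw [e, norm_mul, hy, one_mul, Complex.norm_exp_I_mul_ofReal_sub_one, Real.norm_eq_abs, abs_mul,
    abs_two]
  have h3 : |Real.sin ((a - b) / 2)| < 1 / 2 := by
    rw [← Real.sin_pi_div_six, Real.abs_sin_eq_sin_abs_of_abs_le_pi (by linarith)]
    exact Real.sin_lt_sin_of_lt_of_le_pi_div_two (by linarith [abs_nonneg ((a - b) / 2)])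
      (by linarith) h2
  linarith

/-- Pigeonhole on the unit circle. -/
theorem exists_pow_near_one (s : Finset ℂ) (hs : ∀ z ∈ s, ‖z‖ = 1) :
    ∃ k : ℕ, 0 < k ∧ k ≤ 6 ^ s.card ∧ ∀ z ∈ s, ‖z ^ k - 1‖ < 1 := by
  classical
  have hpi := Real.pi_pos
  have hb : ∀ w : ℂ, ⌊-3 * w.arg / Real.pi⌋ ∈ Finset.Icc (-3 : ℤ) 2 := fun w => by
    rw [Finset.mem_Icc, Int.le_floor, Int.floor_le_iff, le_div_iff₀ hpi, div_lt_iff₀ hpi]
    have h1 := Complex.arg_le_pi w
    have h2 := Complex.neg_pi_lt_arg w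
    push_cast
    constructor <;> linarith
  let f : Fin (6 ^ s.card + 1) → s → Finset.Icc (-3 : ℤ) 2 := fun k z => ⟨_, hb (z.1 ^ k.1)⟩
  obtain ⟨a, b, hab, hf⟩ := Fintype.exists_ne_map_eq_of_card_lt f (by simp)
  wlog hlt : a < b generalizing a b
  · exact this b a hab.symm hf.symm (lt_of_le_of_ne (not_lt.1 hlt) hab.symm)
  have hlt' : a.1 < b.1 := hlt
  refine ⟨b - a, by omega, by have := b.2; omega, fun z hz => ?_⟩
  have h1 := norm_sub_lt_one (x := z ^ b.1) (y := z ^ a.1) (by rw [norm_pow, hs z hz, one_pow])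
    (by rw [norm_pow, hs z hz, one_pow]) (congrArg Subtype.val (congrFun hf ⟨z, hz⟩)).symm
  have h2 : z ^ b.1 - z ^ a.1 = z ^ a.1 * (z ^ (b.1 - a.1) - 1) := by
    rw [mul_sub, mul_one, ← pow_add, Nat.add_sub_cancel' hlt'.le]
  rwa [h2, norm_mul, norm_pow, hs z hz, one_pow, one_mul] at h1

theorem exists_principal_not_dvd {G : Type*} [Group G] [Finite G] {M : Ideal AlgInt} {p q : ℕ}
    [hp : Fact p.Prime] (hM : IsPModular p M) (hpG : p ∣ Nat.card G) (hq : q.Prime) :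
    ∃ χ ∈ principalBlock M G, χ ≠ irrOne G ∧ ¬ q ∣ charDegree (χ : G → ℂ) := by
  classical
  by_contra hn
  push Not at hn
  obtain ⟨z, hz⟩ := exists_prime_orderOf_dvd_card' p hpG
  obtain ⟨M', hM'⟩ := exists_isPModular hq
  have h1 := sum_mul_conj_eq_zero_of_singular_regular hM (val_blockCoeff_principal_le_one hM)
    (x := z) (y := 1) (by rw [hz]) (by simpa using hp.out.one_lt.ne')
  rw [finsum_mem_irr_eq_sum, ← Finset.add_sum_erase _ _
    (Finset.mem_filter.2 ⟨Finset.mem_univ _, irrOne_mem_principal hM⟩)] at h1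
  simp only [irrOne_apply, map_one, mul_one] at h1
  have h2 := val_sum_lt_one (M := M') (s := (Finset.univ.filter
      (· ∈ principalBlock M G)).erase (irrOne G))
    (f := fun χ : IrrCharacter G => (χ : G → ℂ) z * (starRingEnd ℂ) ((χ : G → ℂ) 1))
    fun χ hχ => by
      obtain ⟨h3, h4⟩ := Finset.mem_erase.1 hχ
      rw [χ.2.isCharacter.conj_one, ← coe_charDegree_irr, map_mul]
      exact lt_of_le_of_lt (mul_le_of_le_one_left' (val_le_one_of_isIntegral
        (χ.2.isCharacter.isIntegral z)))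
        ((val_natCast_lt_one_iff hM' _).2 (hn χ (Finset.mem_filter.1 h4).2 h3))
  rw [eq_neg_of_add_eq_zero_right h1] at h2
  simp at h2

end Cfsg.Agent.Char.Blich60
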