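import Mathlib
import Cfsg.Agent.Grp.BeamMain

/-!
The Brauer-Feit theorem by Jordan's beam argument: a finite linear group of degree `n` in
characteristic `p` with Sylow `p`-subgroups of order at most `p ^ m` has an abelian subgroup of
`(n, p ^ m)`-bounded index.
-/

set_option autoImplicit false
set_option linter.unusedSectionVars false

namespace Cfsg.Agent.Char.BrauerFeit

universe u v

open Subgroup Module Cfsg.Agent.Grp.Beam

/-- A group which is abelian modulo a normal `p`-subgroup has an abelian Hall `p'`-subgroup. -/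
theorem exists_abelian_of_normal_pgroup {B : Type*} [Group B] [Finite B] {p : ℕ} [Fact p.Prime]
    (P : Subgroup B) [P.Normal] (hP : IsPGroup p P) (h : ∀ a b : B, a * b * a⁻¹ * b⁻¹ ∈ P) :
    ∃ A : Subgroup B, (∀ a ∈ A, ∀ b ∈ A, a * b = b * a) ∧
      A.index = p ^ (Nat.card B).factorization p := by
  obtain ⟨Q⟩ := (inferInstance : Nonempty (Sylow p B))
  have hle : P ≤ Q := hP.le_sylow_of_normal Q
  have hn : (Q : Subgroup B).Normal := ⟨fun q hq g => by
    have := (Q : Subgroup B).mul_mem (hle (h g q)) hq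
    simpa using this⟩
  obtain ⟨A, hA⟩ := exists_right_complement'_of_coprime Q.card_coprime_index
  refine ⟨A, fun a ha b hb => ?_, ?_⟩
  · have h1 : a * b * a⁻¹ * b⁻¹ ∈ (Q : Subgroup B) ⊓ A :=
      ⟨hle (h a b), A.mul_mem (A.mul_mem (A.mul_mem ha hb) (A.inv_mem ha)) (A.inv_mem hb)⟩
    rw [hA.disjoint.eq_bot, mem_bot, mul_inv_eq_one, mul_inv_eq_iff_eq_mul] at h1
    exact h1
  · rw [hA.index_eq_card, Q.card_eq_multiplicity]

section

variable {G : Type u} [Group G] [Finite G] {k : Type v} [Field k] {V : Type v} [AddCommGroup V]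
  [Module k V] [FiniteDimensional k V]

theorem exists_height (ρ : G →* End k V) (hρ : Function.Injective ρ) :
    ∃ ht : Subgroup G → ℕ, (∀ A, ht A ≤ finrank k V * finrank k V) ∧
      ∀ A B : Subgroup G, B ≤ A → ∀ x : G,
      (∀ b ∈ B, x * b = b * x) → (¬ ∀ a ∈ A, x * a = a * x) → ht A < ht B := by
  refine ⟨fun A => finrank k (Subalgebra.toSubmodule (Subalgebra.centralizer k (ρ '' A))),
    fun A => ?_, fun A B hBA x hx hn => ?_⟩
  · rw [← Module.finrank_linearMap k k V V]
    exact Submodule.finrank_le _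
  · refine Submodule.finrank_lt_finrank_of_lt (lt_of_le_of_ne (fun f hf => ?_) fun heq => hn ?_)
    · rw [Subalgebra.mem_toSubmodule, Subalgebra.mem_centralizer_iff] at hf ⊢
      rintro _ ⟨b, hb, rfl⟩
      exact hf _ ⟨b, hBA hb, rfl⟩
    · have h1 : ρ x ∈ Subalgebra.toSubmodule (Subalgebra.centralizer k (ρ '' B)) := by
        rw [Subalgebra.mem_toSubmodule, Subalgebra.mem_centralizer_iff]
        rintro _ ⟨b, hb, rfl⟩
        rw [← map_mul, ← map_mul, hx b hb]
      rw [← heq, Subalgebra.mem_toSubmodule, Subalgebra.mem_centralizer_iff] at h1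
      intro a ha
      apply hρ
      rw [map_mul, map_mul]
      exact (h1 _ ⟨a, ha, rfl⟩).symm

theorem pow_apply_of_mem {p : ℕ} [hp : Fact p.Prime] [CharP k p] {f : End k V} {c : k} {v : V}
    (hv : v ∈ f.maxGenEigenspace c) :
    (f ^ p ^ finrank k V) v = c ^ p ^ finrank k V • v := by
  rcases subsingleton_or_nontrivial V with hV | hV
  · exact Subsingleton.elim _ _
  have : CharP (End k V) p := charP_of_injective_algebraMap (algebraMap k (End k V)).injective p
  rw [End.maxGenEigenspace_eq_genEigenspace_finrank, End.mem_genEigenspace_nat,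
    LinearMap.mem_ker] at hv
  obtain ⟨j, hj⟩ := Nat.exists_eq_add_of_le (Nat.lt_pow_self hp.out.one_lt (n := finrank k V)).le
  have h1 : ((f - c • (1 : End k V)) ^ p ^ finrank k V) v = 0 := by
    rw [hj, add_comm, pow_add, End.mul_apply, hv, map_zero]
  rw [sub_pow_char_pow_of_commute _ _ ((Commute.one_right f).smul_right c), smul_pow, one_pow]
    at h1
  simpa [sub_eq_zero] using h1

theorem ncard_conj_le {p : ℕ} [hp : Fact p.Prime] [CharP k p] [IsAlgClosed k]
    (ρ : G →* End k V) (hρ : Function.Injective ρ) {m : ℕ}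
    (hm : (Nat.card G).factorization p ≤ m) (E : Subgroup G)
    (hE : ∀ a ∈ E, ∀ b ∈ E, a * b = b * a) (t : G) :
    {e | e ∈ E ∧ IsConj t e}.ncard ≤ p ^ m * (finrank k V + 1) ^ finrank k V := by
  classical
  set n := finrank k V with hn
  let f : E → End k V := fun e => ρ e
  have hmaps : ∀ (i j : E) (φ : k), Set.MapsTo (f i) ((f j).maxGenEigenspace φ)
      ((f j).maxGenEigenspace φ) := fun i j φ =>
    End.mapsTo_maxGenEigenspace_of_comm (by
      change ρ j * ρ i = ρ i * ρ j
      rw [← map_mul, ← map_mul, hE _ j.2 _ i.2]) φ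
  have hind := End.independent_iInf_maxGenEigenspace_of_forall_mapsTo f hmaps
  have htop := End.iSup_iInf_maxGenEigenspace_eq_top_of_forall_mapsTo f hmaps
    fun i => End.iSup_maxGenEigenspace_eq_top _
  let Λ := {χ : E → k // (⨅ i, (f i).maxGenEigenspace (χ i)) ≠ ⊥}
  let _ : Fintype Λ := hind.fintypeNeBotOfFiniteDimensional
  have hΛ : Fintype.card Λ ≤ n := hind.subtype_ne_bot_le_finrank
  have hind' := End.eigenspaces_iSupIndep (ρ t)
  let Λ' := {μ : k // (ρ t).eigenspace μ ≠ ⊥}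
  let _ : Fintype Λ' := hind'.fintypeNeBotOfFiniteDimensional
  have hΛ' : Fintype.card Λ' ≤ n := hind'.subtype_ne_bot_le_finrank
  -- the `p`-part of `E`
  let P : Subgroup G :=
    { carrier := {e | e ∈ E ∧ e ^ p ^ n = 1}
      one_mem' := ⟨E.one_mem, one_pow _⟩
      mul_mem' := fun {a b} ha hb => ⟨E.mul_mem ha.1 hb.1, by
        rw [(show Commute a b from hE a ha.1 b hb.1).mul_pow, ha.2, hb.2, one_mul]⟩
      inv_mem' := fun {a} ha => ⟨E.inv_mem ha.1, by rw [inv_pow, ha.2, inv_one]⟩ }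
  have hP : IsPGroup p P := fun e => ⟨n, Subtype.ext e.2.2⟩
  have hPcard : Nat.card P ≤ p ^ m := by
    obtain ⟨a, ha⟩ := hP.exists_card_eq
    have h1 : p ^ a ∣ Nat.card G := ha ▸ P.card_subgroup_dvd_card
    rw [ha]
    exact Nat.pow_le_pow_right hp.out.pos
      (((hp.out.pow_dvd_iff_le_factorization Nat.card_pos.ne').1 h1).trans hm)
  let S := {e : G // e ∈ E ∧ IsConj t e}
  have heig : ∀ (e : S) (χ : Λ), (ρ t).eigenspace (χ.1 ⟨e.1, e.2.1⟩) ≠ ⊥ := by
    intro e χ
    have h1 : (ρ e.1).maxGenEigenspace (χ.1 ⟨e.1, e.2.1⟩) ≠ ⊥ := fun h =>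
      χ.2 (eq_bot_iff.2 ((iInf_le _ (⟨e.1, e.2.1⟩ : E)).trans h.le))
    have h2 : (ρ e.1).HasEigenvalue (χ.1 ⟨e.1, e.2.1⟩) := by
      rw [End.maxGenEigenspace_eq_genEigenspace_finrank] at h1
      exact End.hasEigenvalue_of_hasGenEigenvalue h1
    obtain ⟨v, hv⟩ := h2.exists_hasEigenvector
    obtain ⟨h, hh⟩ := isConj_iff.1 e.2.2
    rw [Submodule.ne_bot_iff]
    refine ⟨ρ h⁻¹ v, ?_, fun h0 => hv.2 ?_⟩
    · rw [End.mem_eigenspace_iff, ← map_smul, ← hv.apply_eq_smul, ← End.mul_apply,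
        ← End.mul_apply, ← map_mul, ← map_mul, ← hh]
      congr 2
      group
    · have := congrArg (ρ h) h0
      rwa [← End.mul_apply, ← map_mul, mul_inv_cancel, map_one, map_zero, End.one_apply] at this
  let Φ : S → Λ → Λ' := fun e χ => ⟨_, heig e χ⟩
  have := Fintype.ofFinite G
  have key : (Finset.univ : Finset S).card ≤ p ^ m * (Finset.univ.image Φ).card := by
    refine Finset.card_le_mul_card_image _ _ fun b hb => ?_
    obtain ⟨e₀, -, rfl⟩ := Finset.mem_image.1 hb
    refine le_trans ?_ hPcard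
    rw [Nat.card_eq_fintype_card, Fintype.card_subtype]
    refine Finset.card_le_card_of_injOn (fun e => e₀.1⁻¹ * e.1) (fun e he => ?_)
      (fun a _ b _ hab => Subtype.ext (mul_left_cancel hab))
    simp only [Finset.coe_filter, Finset.mem_univ, true_and, Set.mem_ofPred_eq] at he ⊢
    refine ⟨E.mul_mem (E.inv_mem e₀.2.1) e.2.1, ?_⟩
    rw [(show Commute e₀.1⁻¹ e.1 from hE _ (E.inv_mem e₀.2.1) _ e.2.1).mul_pow, inv_pow,
      inv_mul_eq_one]
    apply hρ
    rw [map_pow, map_pow]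
    have h3 : (⊤ : Submodule k V) ≤ LinearMap.eqLocus (ρ e₀.1 ^ p ^ n) (ρ e.1 ^ p ^ n) := by
      rw [← htop]
      refine iSup_le fun χ => ?_
      by_cases hχ : (⨅ i, (f i).maxGenEigenspace (χ i)) = ⊥
      · rw [hχ]
        exact bot_le
      intro v hv
      have h4 := pow_apply_of_mem (p := p) ((Submodule.mem_iInf _).1 hv (⟨e₀.1, e₀.2.1⟩ : E))
      have h5 := pow_apply_of_mem (p := p) ((Submodule.mem_iInf _).1 hv (⟨e.1, e.2.1⟩ : E))
      have h6 : χ ⟨e.1, e.2.1⟩ = χ ⟨e₀.1, e₀.2.1⟩ :=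
        congrArg Subtype.val (congrFun he ⟨χ, hχ⟩)
      rw [h6] at h5
      exact h4.trans h5.symm
    exact LinearMap.ext fun v => h3 (Submodule.mem_top (x := v))
  have h7 : {e | e ∈ E ∧ IsConj t e}.ncard = (Finset.univ : Finset S).card := by
    rw [Finset.card_univ, ← Nat.card_eq_fintype_card]
    rfl
  rw [h7]
  refine key.trans (Nat.mul_le_mul_left _ ((Finset.card_le_univ _).trans ?_))
  rw [Fintype.card_fun]
  exact (Nat.pow_le_pow_left (by omega) _).trans (Nat.pow_le_pow_right (by omega) hΛ)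

end

/-- The inductive claim: bound `N` for faithful representations of dimension `< n`. -/
def Claim (p m n N : ℕ) : Prop :=
  ∀ (G : Type u) [Group G] [Finite G] (k : Type v) [Field k] [IsAlgClosed k] [CharP k p]
    (V : Type v) [AddCommGroup V] [Module k V] [FiniteDimensional k V] (ρ : G →* End k V),
    finrank k V < n → Function.Injective ρ → (Nat.card G).factorization p ≤ m →
    ∃ A : Subgroup G, (∀ a ∈ A, ∀ b ∈ A, a * b = b * a) ∧ A.index ≤ N

theorem factorization_le_of_dvd {a b p m : ℕ} (h : a ∣ b) (hb : b ≠ 0)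
    (hm : b.factorization p ≤ m) : a.factorization p ≤ m :=
  ((Nat.factorization_le_iff_dvd (ne_zero_of_dvd_ne_zero hb h) hb).2 h p).trans hm

theorem Claim.noninj {p m n N : ℕ} (h : Claim.{u, v} p m n N) {G : Type u} [Group G] [Finite G]
    {k : Type v} [Field k] [IsAlgClosed k] [CharP k p] {V : Type v} [AddCommGroup V]
    [Module k V] [FiniteDimensional k V] (ρ : G →* End k V) (hn : finrank k V < n)
    (hm : (Nat.card G).factorization p ≤ m) :
    ∃ A : Subgroup G, (∀ a ∈ A, ∀ b ∈ A, a * b * a⁻¹ * b⁻¹ ∈ ρ.ker) ∧ A.index ≤ N := by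
  obtain ⟨A, hA, hi⟩ := h (G ⧸ ρ.ker) k V (QuotientGroup.lift ρ.ker ρ le_rfl) hn
    ((injective_iff_map_eq_one _).2 fun x hx => by
      obtain ⟨y, rfl⟩ := QuotientGroup.mk_surjective x
      exact (QuotientGroup.eq_one_iff y).2 hx)
    (factorization_le_of_dvd (card_quotient_dvd_card _) Nat.card_pos.ne' hm)
  refine ⟨A.comap (QuotientGroup.mk' ρ.ker), fun a ha b hb => ?_, ?_⟩
  · rw [← QuotientGroup.eq_one_iff]
    have := hA _ ha _ hb
    simp only [QuotientGroup.mk'_apply] at this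
    simp [this]
  · rwa [index_comap_of_surjective _ (QuotientGroup.mk'_surjective _)]

theorem Claim.reducible {p m n N : ℕ} [hp : Fact p.Prime] (h : Claim.{u, v} p m n N) {G : Type u}
    [Group G] [Finite G] {k : Type v} [Field k] [IsAlgClosed k] [CharP k p] {V : Type v}
    [AddCommGroup V] [Module k V] [FiniteDimensional k V] (ρ : G →* End k V)
    (hn : finrank k V < n + 1) (hρ : Function.Injective ρ)
    (hm : (Nat.card G).factorization p ≤ m) (U : Submodule k V) (hU : ∀ g, U ≤ U.comap (ρ g))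
    (h0 : U ≠ ⊥) (h1 : U ≠ ⊤) :
    ∃ A : Subgroup G, (∀ a ∈ A, ∀ b ∈ A, a * b = b * a) ∧ A.index ≤ p ^ m * (N * N) := by
  have hd := U.finrank_quotient_add_finrank
  have hd1 : finrank k U < finrank k V := Submodule.finrank_lt h1
  have hd0 : finrank k U ≠ 0 := fun h => h0 (Submodule.finrank_eq_zero.1 h)
  let ρ₁ : G →* End k U := Representation.subrepresentation ρ U hU
  let ρ₂ : G →* End k (V ⧸ U) := Representation.quotient ρ U hU
  obtain ⟨A₁, hA₁, hi₁⟩ := h.noninj ρ₁ (by omega) hm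
  obtain ⟨A₂, hA₂, hi₂⟩ := h.noninj ρ₂ (by omega) hm
  have hV : Nontrivial V := Module.nontrivial_of_finrank_pos (R := k) (by omega)
  have : CharP (End k V) p := charP_of_injective_algebraMap (algebraMap k (End k V)).injective p
  have hP : IsPGroup p (ρ₁.ker ⊓ ρ₂.ker : Subgroup G) := by
    rintro ⟨c, hc₁, hc₂⟩
    refine ⟨1, Subtype.ext ?_⟩
    change c ^ p ^ 1 = 1
    apply hρ
    have h2 : (ρ c - 1) ^ 2 = 0 := by
      ext v
      have h3 : ρ c v - v ∈ U := by
        rw [← Submodule.Quotient.eq]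
        exact LinearMap.congr_fun (MonoidHom.mem_ker.1 hc₂) (Submodule.Quotient.mk v)
      have h4 : ρ c (ρ c v - v) = ρ c v - v :=
        congrArg Subtype.val (LinearMap.congr_fun (MonoidHom.mem_ker.1 hc₁) ⟨_, h3⟩)
      rw [pow_two, End.mul_apply, LinearMap.sub_apply, LinearMap.sub_apply, End.one_apply,
        End.one_apply, h4, sub_self, LinearMap.zero_apply]
    have h5 : (ρ c - 1) ^ p ^ 1 = 0 := pow_eq_zero_of_le (by simpa using hp.out.two_le) h2
    rw [sub_pow_char_pow_of_commute _ _ (Commute.one_right _), one_pow, sub_eq_zero] at h5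
    rw [map_pow, h5, map_one]
  obtain ⟨A, hA, hi⟩ := exists_abelian_of_normal_pgroup (B := (A₁ ⊓ A₂ : Subgroup G))
    ((ρ₁.ker ⊓ ρ₂.ker).subgroupOf (A₁ ⊓ A₂)) (hP.comap_subtype)
    fun a b => ⟨hA₁ _ a.2.1 _ b.2.1, hA₂ _ a.2.2 _ b.2.2⟩
  refine ⟨A.map (A₁ ⊓ A₂).subtype, ?_, ?_⟩
  · rintro _ ⟨a, ha, rfl⟩ _ ⟨b, hb, rfl⟩
    exact congrArg Subtype.val (hA a ha b hb)
  · rw [index_map_subtype, hi]
    refine Nat.mul_le_mul (Nat.pow_le_pow_right hp.out.pos ?_)
      (index_inf_le.trans (Nat.mul_le_mul hi₁ hi₂))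
    exact factorization_le_of_dvd (card_subgroup_dvd_card _) Nat.card_pos.ne' hm

theorem exists_claim (p m : ℕ) [hp : Fact p.Prime] (n : ℕ) : ∃ N, Claim.{u, v} p m n N := by
  induction n with
  | zero => exact ⟨0, fun _ _ _ _ _ _ _ _ _ _ _ _ h => absurd h (Nat.not_lt_zero _)⟩
  | succ n ih =>
    obtain ⟨N, hN⟩ := ih
    obtain ⟨N', hN'⟩ := beam_bound.{u} (p ^ m * (N * N)) (n * n) (p ^ m * (n + 1) ^ n)
    refine ⟨N', fun G _ _ k _ _ _ V _ _ _ ρ hn hρ hm => hN' G (fun g hg => ?_) ?_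
      fun E hE t => ?_⟩
    · have hns : ∀ μ : k, (ρ g).eigenspace μ ≠ ⊤ := fun μ hμ => hg (mem_center_iff.2 fun x => by
        have h1 : ρ g = μ • (1 : End k V) := LinearMap.ext fun v =>
          End.mem_eigenspace_iff.1 (hμ ▸ Submodule.mem_top)
        apply hρ
        rw [map_mul, map_mul, h1, mul_smul_comm, smul_mul_assoc, mul_one, one_mul])
      have hV : Nontrivial V := by
        by_contra hV
        rw [not_nontrivial_iff_subsingleton] at hV
        exact hns 0 (Subsingleton.elim _ _)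
      obtain ⟨μ, hμ⟩ := End.exists_eigenvalue (ρ g)
      obtain ⟨A, hA, hi⟩ := hN.reducible (ρ.comp (centralizer {g}).subtype) hn
        (hρ.comp Subtype.val_injective)
        (factorization_le_of_dvd (card_subgroup_dvd_card _) Nat.card_pos.ne' hm)
        ((ρ g).eigenspace μ) (fun x v hv => by
          rw [Submodule.mem_comap, End.mem_eigenspace_iff]
          rw [End.mem_eigenspace_iff] at hv
          change ρ g (ρ x v) = μ • ρ x v
          rw [← map_smul, ← hv, ← End.mul_apply, ← End.mul_apply, ← map_mul, ← map_mul,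
            mem_centralizer_singleton_iff.1 x.2]) hμ (hns μ)
      refine ⟨A.map (centralizer {g}).subtype, ?_, map_subtype_le _, ?_⟩
      · rintro _ ⟨a, ha, rfl⟩ _ ⟨b, hb, rfl⟩
        exact congrArg Subtype.val (hA a ha b hb)
      · rwa [relIndex, subgroupOf, comap_map_eq_self_of_injective (subtype_injective _)]
    · obtain ⟨ht, h1, h2⟩ := exists_height ρ hρ
      exact ⟨ht, fun A => (h1 A).trans (Nat.mul_le_mul (by omega) (by omega)), h2⟩
    · refine (ncard_conj_le ρ hρ hm E hE t).trans (Nat.mul_le_mul_left _ ?_)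
      exact (Nat.pow_le_pow_left (by omega) _).trans (Nat.pow_le_pow_right (by omega) (by omega))

/-- **Brauer-Feit.** -/
theorem brauer_feit (p : ℕ) [Fact p.Prime] (m n : ℕ) : ∃ N : ℕ, ∀ (G : Type u) [Group G]
    [Finite G] (F : Type v) [Field F] [CharP F p] (ρ : Representation F G (Fin n → F)),
    Function.Injective ρ → (Nat.card G).factorization p ≤ m →
    ∃ A : Subgroup G, A.Normal ∧ IsMulCommutative A ∧ A.index ≤ N := by
  obtain ⟨N, hN⟩ := exists_claim.{u, v} p m (n + 1)
  refine ⟨N.factorial, fun G _ _ F _ _ ρ hρ hm => ?_⟩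
  let k := AlgebraicClosure F
  let σ : G →* End k (Fin n → k) :=
    (Matrix.toLinAlgEquiv' (R := k) (n := Fin n)).toMonoidHom.comp
      (((algebraMap F k).mapMatrix (m := Fin n)).toMonoidHom.comp
        ((LinearMap.toMatrixAlgEquiv' (R := F) (n := Fin n)).toMonoidHom.comp ρ))
  have hσ : Function.Injective σ :=
    (Matrix.toLinAlgEquiv' (R := k) (n := Fin n)).injective.comp
      ((Matrix.map_injective (algebraMap F k).injective).comp
        ((LinearMap.toMatrixAlgEquiv' (R := F) (n := Fin n)).injective.comp hρ))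
  obtain ⟨A, hA, hi⟩ := hN G k (Fin n → k) σ (by simp) hσ hm
  refine ⟨A.normalCore, inferInstance, ⟨⟨fun a b => Subtype.ext
    (hA _ (A.normalCore_le a.2) _ (A.normalCore_le b.2))⟩⟩, ?_⟩
  have h1 : A.normalCore.index ∣ A.index.factorial := by
    rw [Subgroup.normalCore_eq_ker, Subgroup.index_ker, Subgroup.index_eq_card, ← Nat.card_perm]
    exact card_subgroup_dvd_card _
  exact (Nat.le_of_dvd (Nat.factorial_pos _) h1).trans (Nat.factorial_le hi)

end Cfsg.Agent.Char.BrauerFeit
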