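import Mathlib
import Cfsg.Agent.Char.TripleAmb
import Cfsg.Agent.Char.OkuWaj
import Cfsg.Agent.Grp.InvertAut
import Cfsg.Agent.Solv.Coprime
import Cfsg.Agent.Char.Degrees

/-! One step of the Isaacs correspondence for coprime actions on groups of odd order. -/

set_option autoImplicit false
open Cfsg Subgroup
open scoped ComplexConjugate commutatorElement

namespace Cfsg.Agent.Char
open Cfsg.Agent.Char Cfsg.Agent.PLocal.Amb

universe u

variable {Γ : Type u} [Group Γ] [Finite Γ]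

/-- uniqueness of the invariant character above an abelian section without fixed points -/
theorem eq_of_invBy_of_commutator {L K S : Subgroup Γ} (hLK : L ≤ K) (hK : K ≤ 𝐍[L])
    (hab : ⁅K, K⁆ ≤ L) (hSK : S ≤ 𝐍[K]) (hSL : S ≤ 𝐍[L])
    (hcop : (L.relIndex K).Coprime (Nat.card S)) (hKS : K ≤ ⁅K, S⁆ ⊔ L) {φ : IrrCharacter L}
    {θ θ' : IrrCharacter K} (hθ : InvBy S θ.1) (hθ' : InvBy S θ'.1) (h : nmult hLK θ.1 φ.1 ≠ 0)
    (h' : nmult hLK θ'.1 φ.1 ≠ 0) : θ = θ' := by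
  classical
  letI := Fintype.ofFinite S
  obtain ⟨μ, h1, h2⟩ := exists_linear_of_over hLK hK hab θ θ' φ h h'
  let c : S → K →* ℂˣ := fun s => μ.comp (K.normalizerMonoidHom (inclusion hSK s)).toMonoidHom
  have hc : ∀ (s : S) (k : K), c s k = μ ⟨s * k * (s : Γ)⁻¹, conj_mem_of_mem_normalizer (hSK s.2) k.2⟩ :=
    fun _ _ => rfl
  let St := (MulAction.stabilizer (Equiv.Perm (IrrCharacter K)) θ).comap (linPerm K)
  have e1 : linPerm K μ θ = θ' := Subtype.ext (funext fun g => (h2 g).symm)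
  have e2 : ∀ s : S, μ⁻¹ * c s ∈ St := fun s => by
    have : linPerm K (c s) θ = θ' := Subtype.ext (funext fun g => by
      rw [linPerm_apply, hc, ← hθ s s.2 g ⟨_, conj_mem_of_mem_normalizer (hSK s.2) g.2⟩ rfl, ← h2]
      exact hθ' s s.2 _ _ rfl)
    change linPerm K (μ⁻¹ * c s) θ = θ
    rw [map_mul, Equiv.Perm.mul_apply, this, ← e1]
    exact (linPerm K μ).symm_apply_apply θ
  have e3 : ∏ s, c s = 1 := by
    have hN : K ≤ (∏ s, c s).ker.map K.subtype := by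
      refine hKS.trans (sup_le (commutator_le.2 fun k hk t ht => ?_) fun l hl => ?_)
      · have hk' := conj_mem_of_mem_normalizer (hSK ht) (inv_mem hk)
        refine ⟨⟨k, hk⟩ * ⟨_, hk'⟩, ?_, by simp [commutatorElement_def, mul_assoc]⟩
        have : (∏ s, c s) ⟨_, hk'⟩ = (∏ s, c s) (⟨k, hk⟩ : K)⁻¹ := by
          simp only [MonoidHom.finset_prod_apply, hc]
          exact Fintype.prod_equiv (Equiv.mulRight (⟨t, ht⟩ : S)) _ _ fun s =>
            congrArg μ (Subtype.ext (by simp [mul_assoc]))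
        rw [SetLike.mem_coe, MonoidHom.mem_ker, map_mul, this, map_inv, mul_inv_cancel]
      · refine ⟨⟨l, hLK hl⟩, ?_, rfl⟩
        simp only [SetLike.mem_coe, MonoidHom.mem_ker, MonoidHom.finset_prod_apply, hc]
        exact Finset.prod_eq_one fun s _ => h1 ⟨_, conj_mem_of_mem_normalizer (hSL s.2) hl⟩
    ext1 k
    obtain ⟨w, hw, e⟩ := hN k.2
    rwa [← Subtype.ext e]
  have e4 : μ ^ Nat.card S ∈ St := by
    have := St.prod_mem (t := Finset.univ) fun s _ => e2 s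
    rw [Finset.prod_mul_distrib, e3, Finset.prod_const, Finset.card_univ,
      ← Nat.card_eq_fintype_card] at this
    have h3 : μ⁻¹ ^ Nat.card S * 1 = (μ ^ Nat.card S)⁻¹ := by ext; simp
    exact (St.inv_mem_iff).1 (h3 ▸ this)
  have e5 : μ ^ L.relIndex K ∈ St := by
    haveI := normal_subgroupOf' hK
    rw [relIndex, hom_pow_index_eq_one (L.subgroupOf K) μ fun n hn => h1 ⟨n, hn⟩]
    exact one_mem _
  exact (show linPerm K μ θ = θ from mem_of_pow_coprime hcop e5 e4).symm.trans e1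

theorem clifford_amb_nmult {L T H : Subgroup Γ} (hLT : L ≤ T) (hTH : T ≤ H) (hH : H ≤ 𝐍[L])
    {ν : IrrCharacter L} (hT : H ⊓ invSubgroup ν.1 ≤ T) (χ : IrrCharacter H) (ψ : IrrCharacter T)
    (h1 : nmult hLT ψ.1 ν.1 ≠ 0) (h2 : nmult hTH χ.1 ψ.1 ≠ 0) : nmult hTH χ.1 ψ.1 = 1 := by
  have e := sum_nmult_mul_charDegree hTH ψ.2.isCharacter
  rw [← clifford_amb_degree hLT hTH hH hT χ ψ h1 h2, Finset.sum_eq_single χ
    (fun χ' _ hne => by
      rw [mul_eq_zero]; left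
      by_contra h3
      exact hne (clifford_amb_inj hLT hTH hH hT ψ h1 h3 h2))
    (fun h => absurd (Finset.mem_univ _) h)] at e
  exact Nat.eq_of_mul_eq_mul_right (charDegree_irr_pos χ) (by rw [e, one_mul])

/-- multiplicities are preserved by the Clifford correspondence -/
theorem nmult_eq_of_clifford {L T G H H₁ : Subgroup Γ} (hL : L ≤ H₁) (h1 : H₁ ≤ T) (h2 : H₁ ≤ H)
    (hTG : T ≤ G) (hHG : H ≤ G) (hG : G ≤ 𝐍[L]) {ν : IrrCharacter L}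
    (hT : G ⊓ invSubgroup ν.1 ≤ T) (hH : H ⊓ invSubgroup ν.1 ≤ H₁)
    {χ : IrrCharacter G} {χ₀ : IrrCharacter T} {ψ : IrrCharacter H} {ψ₀ : IrrCharacter H₁}
    (h3 : nmult (hL.trans h1) χ₀.1 ν.1 ≠ 0) (h4 : nmult hTG χ.1 χ₀.1 ≠ 0)
    (h5 : nmult hL ψ₀.1 ν.1 ≠ 0) (h6 : nmult h2 ψ.1 ψ₀.1 ≠ 0) :
    nmult hHG χ.1 ψ.1 = nmult h1 χ₀.1 ψ₀.1 := by
  have e1 := nmult_trans hHG h2 χ.2.isCharacter ψ₀.2.isCharacter
  have e2 := nmult_trans hTG h1 χ.2.isCharacter ψ₀.2.isCharacter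
  rw [Finset.sum_eq_single ψ (fun ψ' _ hne => by
      rw [mul_eq_zero]; right
      by_contra h7
      exact hne (clifford_amb_inj hL h2 (hHG.trans hG) hH ψ₀ h5 h7 h6))
    (fun h => absurd (Finset.mem_univ _) h),
    clifford_amb_nmult hL h2 (hHG.trans hG) hH ψ ψ₀ h5 h6, mul_one] at e1
  rw [Finset.sum_eq_single χ₀ (fun η _ hne => by
      rw [mul_eq_zero]
      by_contra h7
      push Not at h7
      exact hne (clifford_amb_uniq (hL.trans h1) hTG hG hT χ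
        (nmult_trans_ne_zero h1 hL η.2.isCharacter ψ₀ ν.2.isCharacter h7.2 h5) h7.1 h3 h4))
    (fun h => absurd (Finset.mem_univ _) h),
    clifford_amb_nmult (hL.trans h1) hTG hG hT χ χ₀ h3 h4, one_mul] at e2
  exact e1.symm.trans e2

theorem invBy_clifford_iff {L T G S : Subgroup Γ} (hL : L ≤ T) (hTG : T ≤ G) (hG : G ≤ 𝐍[L])
    {ν : IrrCharacter L} (hT : G ⊓ invSubgroup ν.1 ≤ T) (hSG : S ≤ 𝐍[G]) (hST : S ≤ 𝐍[T])
    (hSL : S ≤ 𝐍[L]) (hν : InvBy S ν.1) {χ : IrrCharacter G} {χ₀ : IrrCharacter T}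
    (h3 : nmult hL χ₀.1 ν.1 ≠ 0) (h4 : nmult hTG χ.1 χ₀.1 ≠ 0) : InvBy S χ.1 ↔ InvBy S χ₀.1 := by
  rw [invBy_iff_smul hSG, invBy_iff_smul hST]
  refine forall_congr' fun x => ?_
  have e1 := nmult_smul hL χ₀ ν (inclusion hST x) (inclusion hSL x) rfl
  have e2 := nmult_smul hTG χ χ₀ (inclusion hSG x) (inclusion hST x) rfl
  rw [hν.smul_eq x.2] at e1
  constructor
  · intro h
    rw [h] at e2
    exact clifford_amb_uniq hL hTG hG hT χ (e1 ▸ h3) (e2 ▸ h4) h3 h4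
  · intro h
    rw [h] at e2
    exact clifford_amb_inj hL hTG hG hT χ₀ h3 (e2 ▸ h4) h4

omit [Finite Γ] in
theorem le_normalizer_invSubgroup {L S : Subgroup Γ} (hSL : S ≤ 𝐍[L]) {ν : IrrCharacter L}
    (hν : InvBy S ν.1) : S ≤ 𝐍[invSubgroup ν.1] :=
  ((invBy_iff_le hSL).1 hν).trans le_normalizer

/-- the hypotheses of the step -/
structure IsaacsHyp (G S K L H : Subgroup Γ) : Prop where
  hSG : S ≤ 𝐍[G]
  cop : (Nat.card G).Coprime (Nat.card S)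
  solv : Group.IsSolvable G
  odd : ¬ 2 ∣ Nat.card G
  hLK : L ≤ K
  hKG : K ≤ G
  hGK : G ≤ 𝐍[K]
  hGL : G ≤ 𝐍[L]
  hSK : S ≤ 𝐍[K]
  hSL : S ≤ 𝐍[L]
  ab : ⁅K, K⁆ ≤ L
  sup : G ≤ K ⊔ (G ⊓ 𝐂[S])
  hH : H = L ⊔ (G ⊓ 𝐂[S])
  inf : K ⊓ 𝐂[S] ≤ L

namespace IsaacsHyp
variable {G S K L H : Subgroup Γ}

omit [Finite Γ] in
theorem hLH (h : IsaacsHyp G S K L H) : L ≤ H := h.hH ▸ le_sup_left

omit [Finite Γ] in
theorem hHG (h : IsaacsHyp G S K L H) : H ≤ G := h.hH ▸ sup_le (h.hLK.trans h.hKG) inf_le_left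

omit [Finite Γ] in
theorem hSH (h : IsaacsHyp G S K L H) : S ≤ 𝐍[H] :=
  h.hH ▸ le_normalizer_sup h.hSL (le_normalizer_inf h.hSG (le_normalizer_centralizer le_normalizer))

omit [Finite Γ] in
theorem inf_le (h : IsaacsHyp G S K L H) : K ⊓ H ≤ L := by
  rw [h.hH, inf_comm, sup_inf_of_le_normalizer' h.hLK (inf_le_left.trans h.hGL)]
  exact sup_le le_rfl fun x hx => h.inf ⟨hx.2, hx.1.2⟩

theorem le_commutator (h : IsaacsHyp G S K L H) : K ≤ ⁅K, S⁆ ⊔ L := by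
  have := h.solv
  refine (Solv.coprime_commutator_sup_centralizer S K h.hSK
    (h.cop.symm.coprime_dvd_right (card_dvd_of_le h.hKG))
    (Or.inr (Solv.isSolvable_of_le h.hKG h.solv))).ge.trans (sup_le_sup_left h.inf _)

omit [Finite Γ] in
theorem comm_G (h : IsaacsHyp G S K L H) {x : Γ} (hx : x ∈ S) {g : Γ} (hg : g ∈ G) :
    x * g * x⁻¹ * g⁻¹ ∈ K := by
  obtain ⟨k, hk, c, hc, rfl⟩ :=
    (mem_sup_of_le_normalizer_left (inf_le_left.trans h.hGK)).1 (h.sup hg)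
  have := mul_mem (conj_mem_of_mem_normalizer (h.hSK hx) hk) (inv_mem hk)
  convert this using 1
  rw [← mul_assoc, mul_assoc _ c, ← (hc.2 x⁻¹ (inv_mem hx) : x⁻¹ * c = c * x⁻¹)]
  group

omit [Finite Γ] in
theorem comm_H (h : IsaacsHyp G S K L H) {x : Γ} (hx : x ∈ S) {g : Γ} (hg : g ∈ H) :
    x * g * x⁻¹ * g⁻¹ ∈ L := by
  rw [h.hH] at hg
  obtain ⟨k, hk, c, hc, rfl⟩ := (mem_sup_of_le_normalizer_left (inf_le_left.trans h.hGL)).1 hg
  have := mul_mem (conj_mem_of_mem_normalizer (h.hSL hx) hk) (inv_mem hk)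
  convert this using 1
  rw [← mul_assoc, mul_assoc _ c, ← (hc.2 x⁻¹ (inv_mem hx) : x⁻¹ * c = c * x⁻¹)]
  group

theorem cop_rel (h : IsaacsHyp G S K L H) {X Y : Subgroup Γ} (hY : Y ≤ G) (Z : Subgroup Γ) :
    (X.relIndex Y).Coprime (Z.relIndex S) :=
  (h.cop.coprime_dvd_left ((relIndex_dvd_card X Y).trans (card_dvd_of_le hY))).coprime_dvd_right
    (relIndex_dvd_card Z S)

theorem odd_rel (h : IsaacsHyp G S K L H) {X Y : Subgroup Γ} (hY : Y ≤ G) :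
    ¬ 2 ∣ X.relIndex Y := fun h2 =>
  h.odd ((h2.trans (relIndex_dvd_card X Y)).trans (card_dvd_of_le hY))

theorem exists_involution (h : IsaacsHyp G S K L H) (φ : IrrCharacter L)
    (hφ : InvBy (G ⊔ S) φ.1) :
    ∃ (Γ' : Type u) (_ : Group Γ') (_ : Finite Γ') (Ω : Type u) (_ : Group Ω) (_ : Finite Ω)
      (ρ : Γ' →* Γ) (κ : Γ' →* Ω) (s : L →* Γ') (η : Γ' → ℂ) (t : Ω),
      TData L (G ⊔ S) φ.1 ρ κ s η ∧ t * t = 1 ∧ (∀ γ, ρ γ ∈ H ⊔ S → t * κ γ * t⁻¹ = κ γ) ∧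
        ∀ γ, ρ γ ∈ K → t * κ γ * t⁻¹ * κ γ ∈ tStar ρ κ L := by
  have hLG := h.hLK.trans h.hKG
  have hKU : K ≤ G ⊔ S := h.hKG.trans le_sup_left
  have hJU : H ⊔ S ≤ G ⊔ S := sup_le_sup_right h.hHG S
  obtain ⟨Γ', _, _, Y, _, _, ρ, κ, s, η, d, hκ⟩ :=
    exists_tData (hLG.trans le_sup_left) (sup_le h.hGL h.hSL) φ hφ
  have htop : tStar ρ κ (G ⊔ S) = ⊤ := eq_top_iff.2 fun y _ => by
    obtain ⟨γ, rfl⟩ := hκ y
    exact mem_tStar (d.mem_range γ)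
  haveI : (tStar ρ κ K).Normal := normalizer_eq_top_iff.1
    (eq_top_iff.2 (htop ▸ TData.le_normalizer (sup_le h.hGK h.hSK)))
  obtain ⟨τ, h1, h2, h3⟩ := Grp.InvertAut.exists_invert (Z := tStar ρ κ L) (K := tStar ρ κ K)
    (J := tStar ρ κ (H ⊔ S)) (S := tStar ρ κ (L ⊔ S))
    (fun z hz => mem_center_iff.2 fun y => by
      obtain ⟨γ, rfl⟩ := hκ y
      exact d.commute_of_mem hz γ)
    (tStar_mono h.hLK)
    (commutator_le.2 (by
      rintro _ ⟨a, ha, rfl⟩ _ ⟨b, hb, rfl⟩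
      rw [← map_commutatorElement]
      exact mem_tStar (by rw [map_commutatorElement]; exact h.ab (commutator_mem_commutator ha hb))))
    (by
      rw [← d.tStar_sup hKU hJU, eq_top_iff, ← htop]
      exact tStar_mono (sup_le (h.sup.trans (sup_le_sup_left
        (h.hH ▸ le_sup_right.trans le_sup_left) K)) (le_sup_right.trans le_sup_right)))
    (by
      rintro _ ⟨⟨γ, h1, rfl⟩, h2⟩
      replace h2 := (d.mem_iff (h.hLH.trans le_sup_left)).1 h2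
      obtain ⟨a, ha, b, hb, e⟩ := (mem_sup_of_le_normalizer_left h.hSH).1 h2
      have h3 : b = 1 := Solv.eq_one_of_mem_of_coprime h.cop
        ((G.mul_mem_cancel_left (h.hHG ha)).1 (e ▸ h.hKG h1)) hb
      rw [h3, mul_one] at e
      exact mem_tStar (h.inf_le ⟨h1, e ▸ ha⟩))
    (tStar_mono (sup_le_sup_right h.hLH S)) (tStar_mono le_sup_left)
    (TData.le_normalizer (sup_le (h.hH ▸ sup_le (le_sup_left.trans le_normalizer)
      (le_normalizer_sup (inf_le_left.trans h.hGL)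
        (inf_le_right.trans (centralizer_le_normalizer' S)))) (le_sup_right.trans le_normalizer)))
    (by
      rw [d.relIndex_eq le_rfl h.hLK hKU, d.relIndex_eq le_rfl le_sup_left
        (sup_le_sup_right hLG S), relIndex_sup_amb h.hSL]
      exact h.cop_rel h.hKG L)
    (by
      refine (tStar_mono h.le_commutator).trans ?_
      have e1 : ⁅K, S⁆ ⊔ L = (⁅K.comap ρ, S.comap ρ⁆ ⊔ L.comap ρ).map ρ := by
        rw [Subgroup.map_sup, map_commutator, map_comap_eq_self (d.range ▸ hKU),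
          map_comap_eq_self (d.range ▸ le_sup_right),
          map_comap_eq_self (d.range ▸ hLG.trans le_sup_left)]
      rw [e1, tStar, comap_map_eq, sup_assoc, sup_eq_left.2 (ker_le_comap ρ L), Subgroup.map_sup,
        map_commutator]
      exact sup_le_sup_right (commutator_mono le_rfl (tStar_mono le_sup_right)) _)
  haveI : Finite (Y ⋊[MonoidHom.id (MulAut Y)] MulAut Y) :=
    Finite.of_equiv _ SemidirectProduct.equivProd.symm
  have e : ∀ y : Y, (SemidirectProduct.inr τ * SemidirectProduct.inl y *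
      (SemidirectProduct.inr τ)⁻¹ : Y ⋊[MonoidHom.id (MulAut Y)] MulAut Y) =
      SemidirectProduct.inl (τ y) := fun y => by
    rw [← map_inv]
    exact (SemidirectProduct.inl_aut (φ := MonoidHom.id (MulAut Y)) τ y).symm
  refine ⟨Γ', inferInstance, inferInstance, Y ⋊[MonoidHom.id (MulAut Y)] MulAut Y, inferInstance,
    inferInstance, ρ, SemidirectProduct.inl.comp κ, s, η, SemidirectProduct.inr τ,
    d.comp _ SemidirectProduct.inl_injective, by rw [← map_mul, h3, map_one], fun γ hγ => ?_,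
    fun γ hγ => ?_⟩
  · rw [MonoidHom.comp_apply, e, h1 _ (mem_tStar hγ)]
  · obtain ⟨δ, h4, h5⟩ := h2 _ (mem_tStar hγ)
    rw [MonoidHom.comp_apply, e, ← map_mul, ← h5]
    exact ⟨δ, h4, rfl⟩

/-- the correspondence over an invariant character -/
theorem local_corr (h : IsaacsHyp G S K L H) (φ : IrrCharacter L) (hφ : InvBy (G ⊔ S) φ.1) :
    (∀ χ : IrrCharacter G, InvBy S χ.1 → nmult (h.hLH.trans h.hHG) χ.1 φ.1 ≠ 0 →
      (∃ ψ : IrrCharacter H, ¬ 2 ∣ nmult h.hHG χ.1 ψ.1) ∧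
      (∀ ψ ψ' : IrrCharacter H, ¬ 2 ∣ nmult h.hHG χ.1 ψ.1 → ¬ 2 ∣ nmult h.hHG χ.1 ψ'.1 → ψ = ψ') ∧
      ∀ χ' : IrrCharacter G, InvBy S χ'.1 → ∀ ψ : IrrCharacter H, ¬ 2 ∣ nmult h.hHG χ.1 ψ.1 →
        ¬ 2 ∣ nmult h.hHG χ'.1 ψ.1 → χ = χ') ∧
    ∀ ψ : IrrCharacter H, nmult h.hLH ψ.1 φ.1 ≠ 0 → InvBy S ψ.1 ∧
      ∃ χ : IrrCharacter G, InvBy S χ.1 ∧ ¬ 2 ∣ nmult h.hHG χ.1 ψ.1 := by
  obtain ⟨Γ', _, _, Ω, _, _, ρ, κ, s, η, t, d, ht, h1, h2⟩ := h.exists_involution φ hφ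
  have hLK := h.hLK
  have hKG := h.hKG
  have hLH := h.hLH
  have hHG := h.hHG
  have hLG := hLK.trans hKG
  have hGU : G ≤ G ⊔ S := le_sup_left
  have hKL := hKG.trans h.hGL
  have hne : ∀ {n : ℕ}, ¬ 2 ∣ n → n ≠ 0 := fun h e => h (e ▸ dvd_zero 2)
  have hφG : InvBy G φ.1 := hφ.mono le_sup_left
  have hφS : InvBy S φ.1 := hφ.mono le_sup_right
  -- the involution
  have hP : IsPGroup 2 (zpowers t) := isPGroup_zpowers ⟨1, by rw [pow_one, pow_two, ht]⟩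
  have hmem : ∀ x ∈ zpowers t, x = 1 ∨ x = t := by
    rintro _ ⟨k, rfl⟩
    have h3 : t ^ (2 : ℤ) = 1 := by rw [zpow_two, ht]
    rcases Int.emod_two_eq_zero_or_one k with e | e <;>
      simp only [zpow_eq_zpow_emod k h3, e, zpow_zero, zpow_one, true_or, or_true]
  have hdec : ∀ g ∈ tStar ρ κ G, ∃ a b, ρ a ∈ K ∧ ρ b ∈ H ∧ g = κ a * κ b := by
    rintro _ ⟨γ, hγ, rfl⟩
    obtain ⟨k, hk, c, hc, e⟩ :=
      (mem_sup_of_le_normalizer_left (inf_le_left.trans h.hGK)).1 (h.sup hγ)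
    obtain ⟨b, rfl⟩ := d.exists_eq (hGU hc.1)
    exact ⟨γ * b⁻¹, b, by rwa [map_mul, map_inv, e, mul_inv_cancel_right],
      h.hH ▸ mem_sup_right hc, by rw [← map_mul, inv_mul_cancel_right]⟩
  have hcomm : ∀ a b, ρ b ∈ H → t * (κ a * κ b) * t⁻¹ * (κ a * κ b)⁻¹ =
      (t * κ a * t⁻¹ * κ a) * (κ (a * a))⁻¹ := fun a b hb => by
    have := h1 b (mem_sup_left hb)
    rw [show t * (κ a * κ b) * t⁻¹ = t * κ a * t⁻¹ * (t * κ b * t⁻¹) by group, this, map_mul]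
    group
  have hcK : ∀ x ∈ zpowers t, ∀ g ∈ tStar ρ κ G, x * g * x⁻¹ * g⁻¹ ∈ tStar ρ κ K := by
    intro x hx g hg
    rcases hmem x hx with rfl | rfl
    · simp
    · obtain ⟨a, b, ha, hb, rfl⟩ := hdec g hg
      rw [hcomm a b hb]
      exact mul_mem (tStar_mono hLK (h2 a ha))
        (inv_mem (mem_tStar (by rw [map_mul]; exact mul_mem ha ha)))
  have hcen : tStar ρ κ (H ⊔ S) ≤ 𝐂[zpowers t] := by
    rintro _ ⟨γ, hγ, rfl⟩ x hx
    rcases hmem x hx with rfl | rfl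
    · simp
    · exact mul_inv_eq_iff_eq_mul.1 (h1 γ hγ)
  have hnorm : ∀ X : Subgroup Γ, K ≤ X → X ≤ G → zpowers t ≤ 𝐍[tStar ρ κ X] := fun X h3 h4 =>
    le_normalizer_iff_cj.2 fun x hx => cj_le_iff_forall.2 fun g hg => by
      have := mul_mem (tStar_mono h3 (hcK x hx g (tStar_mono h4 hg))) hg
      rwa [inv_mul_cancel_right] at this
  have hnorm' : ∀ X : Subgroup Γ, X ≤ H ⊔ S → zpowers t ≤ 𝐍[tStar ρ κ X] := fun X h3 =>
    (le_centralizer_iff.1 ((tStar_mono h3).trans hcen)).trans (centralizer_le_normalizer' _)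
  have hPL := hnorm' L (hLH.trans le_sup_left)
  have hPK := hnorm K le_rfl hKG
  have hPG := hnorm G hKG le_rfl
  have hfix : ∀ g ∈ tStar ρ κ G, t * g * t⁻¹ * g⁻¹ ∈ tStar ρ κ L → g ∈ tStar ρ κ H := by
    intro g hg h3
    obtain ⟨a, b, ha, hb, rfl⟩ := hdec g hg
    rw [hcomm a b hb, (tStar ρ κ L).mul_mem_cancel_left (h2 a ha), inv_mem_iff,
      d.mem_iff le_rfl, map_mul, ← pow_two] at h3
    exact mul_mem (mem_tStar (hLH (mem_of_pow_coprime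
      ((Nat.prime_two.coprime_iff_not_dvd).2 (h.odd_rel hKG)) h3 (pow_relIndex_mem_amb hKL ha))))
      (mem_tStar hb)
  have gG : GCorr 2 (zpowers t) (tStar_mono hHG : tStar ρ κ H ≤ _) := by
    refine gcorr_relCent hP hPL _ (tStar_mono hLG) (TData.le_normalizer h.hGL) hPG
      (by rw [d.relIndex_eq le_rfl hLG hGU]; exact h.odd_rel le_rfl) _
      (le_antisymm (fun g hg => ⟨tStar_mono hHG hg, fun x hx => ?_⟩)
        fun g hg => hfix g hg.1 (hg.2 t (mem_zpowers t))) _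
    rw [hcen (tStar_mono le_sup_left hg) x hx]
    simp
  have gK : GCorr 2 (zpowers t) (tStar_mono hLK : tStar ρ κ L ≤ _) := by
    refine gcorr_relCent hP hPL _ (tStar_mono hLK) (TData.le_normalizer hKL) hPK
      (by rw [d.relIndex_eq le_rfl hLK (hKG.trans hGU)]; exact h.odd_rel hKG) _
      (le_antisymm (le_relCent _ (tStar_mono hLK) hPL) ?_) _
    rintro _ ⟨⟨γ, h3, rfl⟩, h4⟩
    have := hfix _ (mem_tStar (hKG h3)) (h4 t (mem_zpowers t))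
    rw [d.mem_iff hLH] at this
    exact mem_tStar (h.inf_le ⟨h3, this⟩)
  -- the characters of `L` and `K`
  obtain ⟨lam, hlam⟩ := d.exists_star le_rfl (hLG.trans hGU) φ (by rw [nmult_refl, if_pos rfl]; simp)
  have hlamP : InvBy (zpowers t) lam.1 :=
    invBy_of_centralizer _ ((tStar_mono (hLH.trans le_sup_left)).trans hcen)
  obtain ⟨θ, hθ1, hθ2⟩ := exists_invBy_above_abelian hLK hKL h.ab h.hSK h.hSL
    (h.cop_rel hKG K) φ hφS
  have huniq : ∀ θ' : IrrCharacter K, InvBy S θ'.1 → nmult hLK θ'.1 φ.1 ≠ 0 → θ' = θ :=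
    fun θ' h3 h4 => eq_of_invBy_of_commutator hLK hKL h.ab h.hSK h.hSL
      (h.cop.coprime_dvd_left ((relIndex_dvd_card L K).trans (card_dvd_of_le hKG)))
      h.le_commutator h3 hθ2 h4 hθ1
  obtain ⟨θs, hθs⟩ := d.exists_star hLK (hKG.trans hGU) θ hθ1
  have hθs1 : nmult (tStar_mono hLK) θs.1 lam.1 ≠ 0 := by
    rwa [← d.nmult_eq le_rfl hLK (hKG.trans hGU) hθs hlam]
  have hθsP : InvBy (zpowers t) θs.1 := by
    refine (invBy_iff_smul hPK θs).2 fun x => ?_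
    have h3 : nmult (tStar_mono hLK) (inclusion hPK x • θs : IrrCharacter _).1 lam.1 ≠ 0 := by
      rwa [← hlamP.smul_eq (x := inclusion hPL x) x.2, nmult_smul _ θs lam _ _ rfl]
    obtain ⟨θ', h4⟩ := d.exists_orig hLK (hKG.trans hGU) hKL hlam _ h3
    have h5 := (d.invBy_iff hLK (hKG.trans hGU) le_sup_right h.hSK hθs).1 hθ2
    have h6 := (d.invBy_iff hLK (hKG.trans hGU) le_sup_right h.hSK h4).2
      (h5.smul (TData.le_normalizer h.hSK) _ (hnorm' S le_sup_right x.2))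
    exact (d.eq_iff hLK (hKG.trans hGU) h4 hθs).1 (huniq θ' h6
      (by rwa [d.nmult_eq le_rfl hLK (hKG.trans hGU) h4 hlam]))
  have hoddK : ∀ ξ : IrrCharacter (tStar ρ κ K), nmult (tStar_mono hLK) ξ.1 lam.1 ≠ 0 →
      ¬ 2 ∣ nmult (tStar_mono hLK) ξ.1 lam.1 := fun ξ h3 h4 => by
    have := (exists_deg_of_invBy _ (TData.le_normalizer hKL) ξ lam (d.invBy_lam _) h3).2
    rw [d.relIndex_eq le_rfl hLK (hKG.trans hGU)] at this
    exact h.odd_rel hKG (h4.trans this)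
  have hinv : ∀ {χ : IrrCharacter G} {β : IrrCharacter (tStar ρ κ G)}, TRel ρ κ η χ.1 β.1 →
      nmult hLG χ.1 φ.1 ≠ 0 → (InvBy S χ.1 ↔ InvBy (zpowers t) β.1) := by
    intro χ β h3 h4
    have e := d.nmult_eq hLK hKG hGU h3 hθs
    constructor
    · intro h5
      obtain ⟨θ', h6, h7⟩ := exists_invBy_below hKG h.hGK h.hSG h.hSK (h.cop_rel le_rfl K)
        (Or.inr (solvMod_of_isSolvable K h.solv)) χ h5
      rw [huniq θ' h7 (nmult_below_of_invBy hLK hKG h.hGL χ θ' hφG h4 h6), e] at h6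
      exact invBy_of_over_of_comm (tStar_mono hKG) (TData.le_normalizer h.hGK) hP hPG hPK hcK
        (by rw [d.relIndex_eq hLK hLG hGU]; exact h.odd_rel le_rfl) hθsP β h6
    · intro h5
      obtain ⟨θ', h6, h7, -⟩ := exists_invBy_under_not_dvd (tStar_mono hKG) hP hPG hPK β h5
        fun h6 => h.odd ((h6.trans (Dvd.intro _ (d.degree_eq h3).symm)).trans
          (charDegree_irr_dvd_card χ))
      have h8 := nmult_below_of_invBy (tStar_mono hLK) (tStar_mono hKG)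
        (TData.le_normalizer h.hGL) β θ' (d.invBy_lam _)
        (by rwa [d.nmult_eq le_rfl hLG hGU h3 hlam] at h4) (hne h7)
      rw [gK.inj _ _ h6 hθsP lam hlamP (hoddK _ h8) (hoddK _ hθs1), ← e] at h7
      exact (invBy_of_relCent hKG h.hGK h.hSG h.hSK (h.cop_rel le_rfl K) χ θ (hne h7) hθ2).mono
        fun x hx => ⟨hx, fun g hg => comm_mem_symm (h.comm_G hx hg)⟩
  have hHP : ∀ ξ : IrrCharacter (tStar ρ κ H), InvBy (zpowers t) ξ.1 := fun ξ =>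
    invBy_of_centralizer _ ((tStar_mono le_sup_left).trans hcen)
  have hHU := hHG.trans hGU
  refine ⟨fun χ h3 h4 => ?_, fun ψ h3 => ⟨?_, ?_⟩⟩
  · obtain ⟨β, hβ⟩ := d.exists_star hLG hGU χ h4
    have hβP := (hinv hβ h4).1 h3
    have hbelow : ∀ ψ : IrrCharacter H, ¬ 2 ∣ nmult hHG χ.1 ψ.1 → nmult hLH ψ.1 φ.1 ≠ 0 :=
      fun ψ h5 => nmult_below_of_invBy hLH hHG h.hGL χ ψ hφG h4 (hne h5)
    refine ⟨?_, fun ψ ψ' h5 h6 => ?_, fun χ' h5 ψ h6 h7 => ?_⟩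
    · obtain ⟨ξ, -, h5⟩ := gG.ex β hβP
      obtain ⟨ψ, hψ⟩ := d.exists_orig hLH hHU (hHG.trans h.hGL) hlam ξ
        (nmult_below_of_invBy (tStar_mono hLH) (tStar_mono hHG) (TData.le_normalizer h.hGL) β ξ
          (d.invBy_lam _) (by rwa [d.nmult_eq le_rfl hLG hGU hβ hlam] at h4) (hne h5))
      exact ⟨ψ, by rwa [d.nmult_eq hLH hHG hGU hβ hψ]⟩
    · obtain ⟨ξ, hξ⟩ := d.exists_star hLH hHU ψ (hbelow ψ h5)
      obtain ⟨ξ', hξ'⟩ := d.exists_star hLH hHU ψ' (hbelow ψ' h6)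
      rw [d.nmult_eq hLH hHG hGU hβ hξ] at h5
      rw [d.nmult_eq hLH hHG hGU hβ hξ'] at h6
      exact (d.eq_iff hLH hHU hξ hξ').2 (gG.uniq β hβP _ _ (hHP _) (hHP _) h5 h6)
    · obtain ⟨ξ, hξ⟩ := d.exists_star hLH hHU ψ (hbelow ψ h6)
      have h8 := nmult_trans_ne_zero hHG hLH χ'.2.isCharacter ψ φ.2.isCharacter (hne h7)
        (hbelow ψ h6)
      obtain ⟨β', hβ'⟩ := d.exists_star hLG hGU χ' h8
      rw [d.nmult_eq hLH hHG hGU hβ hξ] at h6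
      rw [d.nmult_eq hLH hHG hGU hβ' hξ] at h7
      exact (d.eq_iff hLG hGU hβ hβ').2 (gG.inj _ _ hβP ((hinv hβ' h8).1 h5) ξ (hHP _) h6 h7)
  · exact (invBy_of_relCent hLH (hHG.trans h.hGL) h.hSH h.hSL (h.cop_rel hHG L) ψ φ h3 hφS).mono
      fun x hx => ⟨hx, fun g hg => comm_mem_symm (h.comm_H hx hg)⟩
  · obtain ⟨ξ, hξ⟩ := d.exists_star hLH hHU ψ h3
    obtain ⟨β, h4, h5⟩ := gG.surj ξ (hHP _)
    have h6 := nmult_trans_ne_zero (tStar_mono hHG) (tStar_mono hLH) β.2.isCharacter ξ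
      lam.2.isCharacter (hne h5) (by rwa [← d.nmult_eq le_rfl hLH hHU hξ hlam])
    obtain ⟨χ, hχ⟩ := d.exists_orig hLG hGU h.hGL hlam β h6
    exact ⟨χ, (hinv hχ (by rwa [d.nmult_eq le_rfl hLG hGU hχ hlam])).2 h4,
      by rwa [d.nmult_eq hLH hHG hGU hχ hξ]⟩

theorem stab (h : IsaacsHyp G S K L H) {φ : IrrCharacter L} (hφ : InvBy S φ.1) :
    IsaacsHyp (G ⊓ invSubgroup φ.1) S (K ⊓ invSubgroup φ.1) L (H ⊓ invSubgroup φ.1) := by
  have hS := le_normalizer_invSubgroup h.hSL hφ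
  have hL : L ≤ invSubgroup φ.1 :=
    (invBy_iff_le le_normalizer).1 (invBy_self φ.2.isClassFunction)
  have hc := h.cop.coprime_dvd_left (card_dvd_of_le (inf_le_left : G ⊓ invSubgroup φ.1 ≤ G))
  have hsol := Solv.isSolvable_of_le (inf_le_left : G ⊓ invSubgroup φ.1 ≤ G) h.solv
  refine ⟨le_normalizer_inf h.hSG hS, hc, hsol,
    fun h2 => h.odd (h2.trans (card_dvd_of_le inf_le_left)), le_inf h.hLK hL,
    inf_le_inf_right _ h.hKG, le_normalizer_inf (inf_le_left.trans h.hGK)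
      (inf_le_right.trans le_normalizer), inf_le_left.trans h.hGL, le_normalizer_inf h.hSK hS,
    h.hSL, (commutator_mono inf_le_left inf_le_left).trans h.ab, fun g hg => ?_, ?_,
    (inf_le_inf_right _ inf_le_left).trans h.inf⟩
  · obtain ⟨c, hc, h1⟩ := Solv.coprime_fixed_coset S _ (le_normalizer_inf h.hSG hS) hc.symm
      (Or.inr hsol) (K ⊓ invSubgroup φ.1) (inf_le_inf_right _ h.hKG) (le_normalizer_inf h.hSK hS)
      g hg fun a ha => ⟨by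
        have := inv_conj_mem_of_mem_normalizer (h.hGK hg.1) (h.comm_G ha hg.1)
        rwa [mul_assoc, inv_mul_cancel_right] at this,
        (invSubgroup φ.1).mul_mem ((invSubgroup φ.1).inv_mem hg.2)
          (conj_mem_of_mem_normalizer (hS ha) hg.2)⟩
    have := mul_mem (mem_sup_right hc) (inv_mem (mem_sup_left h1 :
      _ ∈ K ⊓ invSubgroup φ.1 ⊔ G ⊓ invSubgroup φ.1 ⊓ 𝐂[S]))
    simpa using this
  · rw [h.hH, sup_inf_of_le_normalizer' hL (inf_le_left.trans h.hGL), inf_right_comm]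

theorem exists_under (h : IsaacsHyp G S K L H) {X : Subgroup Γ} (hL : L ≤ X) (hX : X ≤ G)
    (hS : S ≤ 𝐍[X]) (χ : IrrCharacter X) (hχ : InvBy S χ.1) :
    ∃ φ : IrrCharacter L, nmult hL χ.1 φ.1 ≠ 0 ∧ InvBy S φ.1 :=
  exists_invBy_below hL (hX.trans h.hGL) hS h.hSL (h.cop_rel hX L)
    (Or.inr (solvMod_of_isSolvable L (Solv.isSolvable_of_le hX h.solv))) χ hχ

theorem over_of_under (h : IsaacsHyp G S K L H) (χ : IrrCharacter G) {φ : IrrCharacter L}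
    (hφ : InvBy S φ.1) (h1 : nmult (h.hLH.trans h.hHG) χ.1 φ.1 ≠ 0) (ψ : IrrCharacter H)
    (hψ : InvBy S ψ.1) (h2 : nmult h.hHG χ.1 ψ.1 ≠ 0) : nmult h.hLH ψ.1 φ.1 ≠ 0 := by
  obtain ⟨φ', h3, h4⟩ := h.exists_under h.hLH h.hHG h.hSH ψ hψ
  obtain ⟨x, hx⟩ := exists_smul_eq_of_nmult _ h.hGL χ φ' φ
    (nmult_trans_ne_zero h.hHG h.hLH χ.2.isCharacter ψ φ'.2.isCharacter h2 h3) h1
  obtain ⟨c, hc, e⟩ := Solv.glauberman_conj (S.subgroupOf 𝐍[L]) (G.subgroupOf 𝐍[L])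
    (fun a ha => mem_normalizer_iff.2 fun k => mem_normalizer_iff.1 (h.hSG ha) k)
    (by rw [Nat.card_congr (subgroupOfEquivOfLe h.hSL).toEquiv,
      Nat.card_congr (subgroupOfEquivOfLe h.hGL).toEquiv]; exact h.cop.symm)
    (Or.inr (by
      have := h.solv
      exact solvable_of_solvable_injective (f := (subgroupOfEquivOfLe h.hGL).toMonoidHom)
        (subgroupOfEquivOfLe h.hGL).injective)) φ' (fun a ha => h4.smul_eq ha)
    (inclusion h.hGL x) x.2 (fun a ha => by rw [hx]; exact hφ.smul_eq ha)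
  have h5 : (c : Γ) ∈ H := h.hH ▸ mem_sup_right ⟨hc.1, fun a ha =>
    congrArg Subtype.val (hc.2 ⟨a, h.hSL ha⟩ ha)⟩
  rw [← hx, ← e, ← irr_smul_of_mem ψ (x := ⟨c, le_normalizer h5⟩) h5, nmult_smul _ ψ φ' _ c rfl]
  exact h3

/-- the Isaacs correspondence step -/
theorem gcorr (h : IsaacsHyp G S K L H) : GCorr 2 S h.hHG := by
  have hne : ∀ {n : ℕ}, ¬ 2 ∣ n → n ≠ 0 := fun h e => h (e ▸ dvd_zero 2)
  have hLH := h.hLH
  have hHG := h.hHG
  have hHL := hHG.trans h.hGL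
  have hφ' : ∀ {φ : IrrCharacter L}, InvBy S φ.1 → InvBy (G ⊓ invSubgroup φ.1 ⊔ S) φ.1 :=
    fun h1 => InvBy.sup (inf_le_left.trans h.hGL) h.hSL
      ((invBy_iff_le (inf_le_left.trans h.hGL)).2 inf_le_right) h1
  have hG : ∀ {φ : IrrCharacter L} (hφ : InvBy S φ.1) {χ : IrrCharacter G}
      {χ₀ : IrrCharacter ↥(G ⊓ invSubgroup φ.1)},
      nmult ((h.stab hφ).hLH.trans (h.stab hφ).hHG) χ₀.1 φ.1 ≠ 0 →
      nmult inf_le_left χ.1 χ₀.1 ≠ 0 → (InvBy S χ.1 ↔ InvBy S χ₀.1) := fun hφ _ _ h1 h2 =>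
    invBy_clifford_iff _ _ h.hGL le_rfl h.hSG (h.stab hφ).hSG h.hSL hφ h1 h2
  have hH : ∀ {φ : IrrCharacter L} (hφ : InvBy S φ.1) {χ : IrrCharacter H}
      {χ₀ : IrrCharacter ↥(H ⊓ invSubgroup φ.1)}, nmult (h.stab hφ).hLH χ₀.1 φ.1 ≠ 0 →
      nmult inf_le_left χ.1 χ₀.1 ≠ 0 → (InvBy S χ.1 ↔ InvBy S χ₀.1) := fun hφ _ _ h1 h2 =>
    invBy_clifford_iff _ _ hHL le_rfl h.hSH (h.stab hφ).hSH h.hSL hφ h1 h2
  have hM : ∀ {φ : IrrCharacter L} (hφ : InvBy S φ.1) {χ : IrrCharacter G}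
      {χ₀ : IrrCharacter ↥(G ⊓ invSubgroup φ.1)} {ψ : IrrCharacter H}
      {ψ₀ : IrrCharacter ↥(H ⊓ invSubgroup φ.1)},
      nmult ((h.stab hφ).hLH.trans (h.stab hφ).hHG) χ₀.1 φ.1 ≠ 0 →
      nmult inf_le_left χ.1 χ₀.1 ≠ 0 → nmult (h.stab hφ).hLH ψ₀.1 φ.1 ≠ 0 →
      nmult inf_le_left ψ.1 ψ₀.1 ≠ 0 →
      nmult hHG χ.1 ψ.1 = nmult (h.stab hφ).hHG χ₀.1 ψ₀.1 := fun hφ _ _ _ _ h1 h2 h3 h4 =>
    nmult_eq_of_clifford _ _ _ _ _ h.hGL le_rfl le_rfl h1 h2 h3 h4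
  refine ⟨fun χ hχ => ?_, fun χ hχ ψ ψ' h1 h2 h3 h4 => ?_, fun χ _ ψ _ h1 => Or.inl ?_,
    fun χ χ' hχ hχ' ψ h1 h2 h3 => ?_, fun ψ hψ => ?_⟩
  · obtain ⟨φ, h1, hφ⟩ := h.exists_under (hLH.trans hHG) le_rfl h.hSG χ hχ
    obtain ⟨χ₀, h2, h3⟩ := exists_nmult_between inf_le_left
      ((h.stab hφ).hLH.trans (h.stab hφ).hHG) χ.2.isCharacter φ.2.isCharacter h1
    obtain ⟨h4, h5⟩ := (h.stab hφ).local_corr φ (hφ' hφ)
    obtain ⟨ψ₀, h6⟩ := (h4 χ₀ ((hG hφ h3 h2).1 hχ) h3).1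
    have h7 := nmult_below_of_invBy (h.stab hφ).hLH (h.stab hφ).hHG (h.stab hφ).hGL χ₀ ψ₀
      ((hφ' hφ).mono le_sup_left) h3 (hne h6)
    obtain ⟨ψ, h8⟩ := exists_nmult_ne_zero_above (inf_le_left : H ⊓ invSubgroup φ.1 ≤ H) ψ₀
    exact ⟨ψ, (hH hφ h7 h8).2 (h5 ψ₀ h7).1, by rwa [hM hφ h3 h2 h7 h8]⟩
  · obtain ⟨φ, h5, hφ⟩ := h.exists_under (hLH.trans hHG) le_rfl h.hSG χ hχ
    obtain ⟨χ₀, h6, h7⟩ := exists_nmult_between inf_le_left
      ((h.stab hφ).hLH.trans (h.stab hφ).hHG) χ.2.isCharacter φ.2.isCharacter h5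
    obtain ⟨ψ₀, a1, a2⟩ := exists_nmult_between inf_le_left (h.stab hφ).hLH ψ.2.isCharacter
      φ.2.isCharacter (h.over_of_under χ hφ h5 ψ h1 (hne h3))
    obtain ⟨ψ₁, b1, b2⟩ := exists_nmult_between inf_le_left (h.stab hφ).hLH ψ'.2.isCharacter
      φ.2.isCharacter (h.over_of_under χ hφ h5 ψ' h2 (hne h4))
    rw [hM hφ h7 h6 a2 a1] at h3
    rw [hM hφ h7 h6 b2 b1] at h4
    obtain rfl := (((h.stab hφ).local_corr φ (hφ' hφ)).1 χ₀ ((hG hφ h7 h6).1 hχ) h7).2.1 _ _ h3 h4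
    exact clifford_amb_inj _ _ hHL le_rfl ψ₀ a2 a1 b1
  · have : nmult h.hHG χ.1 ψ.1 % 2 = 1 := by omega
    exact Int.natCast_modEq_iff.2 this
  · obtain ⟨φ, h4, hφ⟩ := h.exists_under hLH hHG h.hSH ψ h1
    obtain ⟨ψ₀, a1, a2⟩ := exists_nmult_between inf_le_left (h.stab hφ).hLH ψ.2.isCharacter
      φ.2.isCharacter h4
    obtain ⟨χ₀, b1, b2⟩ := exists_nmult_between inf_le_left
      ((h.stab hφ).hLH.trans (h.stab hφ).hHG) χ.2.isCharacter φ.2.isCharacter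
      (nmult_trans_ne_zero hHG hLH χ.2.isCharacter ψ φ.2.isCharacter (hne h2) h4)
    obtain ⟨χ₁, c1, c2⟩ := exists_nmult_between inf_le_left
      ((h.stab hφ).hLH.trans (h.stab hφ).hHG) χ'.2.isCharacter φ.2.isCharacter
      (nmult_trans_ne_zero hHG hLH χ'.2.isCharacter ψ φ.2.isCharacter (hne h3) h4)
    rw [hM hφ b2 b1 a2 a1] at h2
    rw [hM hφ c2 c1 a2 a1] at h3
    obtain rfl := (((h.stab hφ).local_corr φ (hφ' hφ)).1 χ₀ ((hG hφ b2 b1).1 hχ) b2).2.2 χ₁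
      ((hG hφ c2 c1).1 hχ') _ h2 h3
    exact clifford_amb_inj _ _ h.hGL le_rfl χ₀ b2 b1 c1
  · obtain ⟨φ, h4, hφ⟩ := h.exists_under hLH hHG h.hSH ψ hψ
    obtain ⟨ψ₀, a1, a2⟩ := exists_nmult_between inf_le_left (h.stab hφ).hLH ψ.2.isCharacter
      φ.2.isCharacter h4
    obtain ⟨χ₀, b1, b2⟩ := (((h.stab hφ).local_corr φ (hφ' hφ)).2 ψ₀ a2).2
    have b3 := nmult_trans_ne_zero (h.stab hφ).hHG (h.stab hφ).hLH χ₀.2.isCharacter ψ₀
      φ.2.isCharacter (hne b2) a2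
    obtain ⟨χ, c1⟩ := exists_nmult_ne_zero_above (inf_le_left : G ⊓ invSubgroup φ.1 ≤ G) χ₀
    exact ⟨χ, (hG hφ b3 c1).2 b1, by rwa [hM hφ b3 c1 a2 a1]⟩

end IsaacsHyp

end Cfsg.Agent.Char
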