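import Mathlib
import Cfsg.Prelude.Def_Characters
import Cfsg.Agent.Char.FSForm

/-!
# Characters with indicator `+1` are afforded by real representations
-/

set_option autoImplicit false
set_option maxSynthPendingDepth 3

namespace Cfsg.Agent.Char

open Cfsg Cfsg.Agent.Char Matrix
open scoped ComplexConjugate ComplexOrder

variable {G : Type*} [Group G] {ι : Type*} [Fintype ι] [DecidableEq ι]

/-- A matrix `A` with `Ā A = 1` has the form `T̄⁻¹ T`. -/
theorem exists_conj_mul_eq_of_conj_mul_self (A : Matrix ι ι ℂ)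
    (hA : A.map conj * A = 1) : ∃ T : Matrix ι ι ℂ, IsUnit T ∧ T.map conj * A = T := by
  let P : Matrix ι ι (Polynomial ℂ) :=
    (Polynomial.X + Polynomial.C Complex.I : Polynomial ℂ) • (1 : Matrix ι ι (Polynomial ℂ)) +
      (Polynomial.X - Polynomial.C Complex.I : Polynomial ℂ) • A.map Polynomial.C
  have hev : ∀ t : ℂ, Polynomial.eval t P.det =
      ((t + Complex.I) • (1 : Matrix ι ι ℂ) + (t - Complex.I) • A).det := by
    intro t
    rw [← Polynomial.coe_evalRingHom, RingHom.map_det]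
    congr 1
    ext i j
    by_cases h : i = j <;> simp [P, h]
  have hP : P.det ≠ 0 := by
    intro h
    have := hev Complex.I
    rw [h] at this
    simp only [Polynomial.eval_zero, sub_self, zero_smul, add_zero, det_smul, det_one,
      mul_one] at this
    exact (pow_ne_zero _ (by rw [← two_mul]; simp)) this.symm
  have : ∃ t : ℕ, Polynomial.eval (t : ℂ) P.det ≠ 0 := by
    by_contra h
    push Not at h
    refine hP (Polynomial.eq_zero_of_infinite_isRoot _ ?_)
    exact Set.infinite_of_injective_forall_mem (f := fun t : ℕ => (t : ℂ)) Nat.cast_injective h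
  obtain ⟨t, ht⟩ := this
  rw [hev] at ht
  refine ⟨_, (Matrix.isUnit_iff_isUnit_det _).mpr (Ne.isUnit ht), ?_⟩
  have h1 : (((t : ℂ) + Complex.I) • (1 : Matrix ι ι ℂ) + ((t : ℂ) - Complex.I) • A).map conj =
      ((t : ℂ) - Complex.I) • (1 : Matrix ι ι ℂ) + ((t : ℂ) + Complex.I) • A.map conj := by
    ext i j
    by_cases h : i = j <;> simp [h, sub_eq_add_neg]
  rw [h1, Matrix.add_mul, Matrix.smul_mul, Matrix.smul_mul, hA, Matrix.one_mul, add_comm]

/-- A matrix representation equivalent to its conjugate through `A` with `Ā A = 1` is equivalent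
to a real one. -/
theorem exists_real_of_conj_intertwine (X : G →* Matrix ι ι ℂ) (A : Matrix ι ι ℂ)
    (hA : A.map conj * A = 1) (hX : ∀ g, A * X g = (X g).map conj * A) :
    ∃ (Y : G →* Matrix ι ι ℝ) (T : Matrix ι ι ℂ), IsUnit T ∧
      ∀ g, (Y g).map ((↑) : ℝ → ℂ) * T = T * X g := by
  obtain ⟨T, hT, hTA⟩ := exists_conj_mul_eq_of_conj_mul_self A hA
  have hd : IsUnit T.det := (Matrix.isUnit_iff_isUnit_det T).mp hT
  have hc : ∀ g, (T * X g * T⁻¹).map conj = T * X g * T⁻¹ := by
    intro g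
    have h1 : T⁻¹.map conj * T = A := by
      conv_lhs => rw [← hTA, ← Matrix.mul_assoc]
      rw [hTA, ← Matrix.map_mul, Matrix.nonsing_inv_mul _ hd, Matrix.map_one _ (map_zero _)
        (map_one _), Matrix.one_mul]
    rw [← hT.mul_left_inj, Matrix.map_mul, Matrix.map_mul, Matrix.mul_assoc, h1,
      Matrix.mul_assoc, ← hX, ← Matrix.mul_assoc, hTA, Matrix.nonsing_inv_mul_cancel_right _ _ hd]
  have hre : ∀ g, ((T * X g * T⁻¹).map Complex.re).map ((↑) : ℝ → ℂ) = T * X g * T⁻¹ := by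
    intro g
    ext i j
    exact Complex.conj_eq_iff_re.mp (congrFun (congrFun (hc g) i) j)
  have hinj : Function.Injective (fun M : Matrix ι ι ℝ => M.map ((↑) : ℝ → ℂ)) :=
    Matrix.map_injective Complex.ofReal_injective
  refine ⟨⟨⟨fun g => (T * X g * T⁻¹).map Complex.re, hinj ?_⟩, fun a b => hinj ?_⟩, T, hT,
    fun g => ?_⟩
  · simp only [hre]
    rw [map_one, Matrix.mul_one, Matrix.mul_nonsing_inv _ hd,
      Matrix.map_one _ Complex.ofReal_zero Complex.ofReal_one]
  · have := Matrix.map_mul (f := Complex.ofRealHom) (L := (T * X a * T⁻¹).map Complex.re)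
      (M := (T * X b * T⁻¹).map Complex.re)
    change ((T * X (a * b) * T⁻¹).map Complex.re).map _ =
      ((T * X a * T⁻¹).map Complex.re * (T * X b * T⁻¹).map Complex.re).map _
    erw [this, hre, hre, hre]
    simp only [map_mul, Matrix.mul_assoc, Matrix.nonsing_inv_mul_cancel_left _ _ hd]
  · change ((T * X g * T⁻¹).map Complex.re).map _ * T = _
    rw [hre, Matrix.nonsing_inv_mul_cancel_right _ _ hd]

variable [Fintype G]

theorem exists_real_of_fsInd_eq_one (ρ : Representation ℂ G (ι → ℂ)) [ρ.IsIrreducible]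
    (hν : fsInd ρ.character = 1) :
    ∃ (Y : G →* Matrix ι ι ℝ) (T : Matrix ι ι ℂ), IsUnit T ∧
      ∀ g, (Y g).map ((↑) : ℝ → ℂ) * T = T * repMat ρ g := by
  have hreal : ∀ g, (ρ.character g).im = 0 := by
    by_contra h
    rw [fsInd_eq_zero_of_not_real (isIrrCharacter_character ρ) h] at hν
    simp at hν
  have hnt := nontrivial_of_isIrreducible ρ
  have : Nonempty ι := by
    by_contra h
    rw [not_nonempty_iff] at h
    exact not_subsingleton (ι → ℂ) inferInstance
  obtain ⟨M, hM0, hM⟩ := exists_isInvForm ρ hreal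
  have hs := hM.transpose_eq
  rw [hν, one_smul] at hs
  have hMu := hM.isUnit hM0
  set X := repMat ρ with hXdef
  set H : Matrix ι ι ℂ := ∑ g, (X g)ᴴ * X g with hH
  have hHpos : H.PosDef := Matrix.posDef_sum Finset.univ_nonempty fun g _ =>
    Matrix.PosDef.conjTranspose_mul_self _
      (Matrix.mulVec_injective_iff_isUnit.mpr ((Group.isUnit g).map X))
  have hHinv : ∀ g, (X g)ᴴ * H * X g = H := by
    intro h
    rw [hH, Finset.mul_sum, Finset.sum_mul,
      ← Equiv.sum_comp (Equiv.mulRight h) (fun g => (X g)ᴴ * X g)]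
    simp [Matrix.mul_assoc]
  have hHd : IsUnit H.det := (Matrix.isUnit_iff_isUnit_det H).mp hHpos.isUnit
  have hHtd : IsUnit Hᵀ.det := (Matrix.isUnit_iff_isUnit_det _).mp hHpos.transpose.isUnit
  have hconj : ∀ B : Matrix ι ι ℂ, B.map conj = Bᴴᵀ := fun B => by ext; simp
  have hconj' : ∀ B : Matrix ι ι ℂ, B.map conj = Bᵀᴴ := fun B => by ext; simp
  set A := Hᵀ⁻¹ * M with hA
  have hAX : ∀ g, A * X g = (X g).map conj * A := by
    intro g
    have h1 : Hᵀ * (X g).map conj = (X g⁻¹)ᵀ * Hᵀ := by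
      have h2 := congrArg Matrix.transpose (hHinv g)
      rw [Matrix.transpose_mul, Matrix.transpose_mul, ← hconj] at h2
      conv_rhs => rw [← h2, ← Matrix.mul_assoc, ← Matrix.transpose_mul, mat_mul_inv,
        Matrix.transpose_one, Matrix.one_mul]
    rw [← hHpos.transpose.isUnit.mul_right_inj, hA, Matrix.mul_assoc,
      Matrix.mul_nonsing_inv_cancel_left _ _ hHtd, ← Matrix.mul_assoc, h1, Matrix.mul_assoc,
      Matrix.mul_nonsing_inv_cancel_left _ _ hHtd]
    exact hM.mul_eq g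
  obtain ⟨c, hc⟩ := exists_eq_smul_one_of_commute ρ (A.map conj * A) (fun g => by
    have h1 := congrArg (fun B : Matrix ι ι ℂ => B.map conj) (hAX g)
    simp only [Matrix.map_mul, Matrix.map_map] at h1
    rw [show (X g).map (conj ∘ conj) = X g by ext; simp] at h1
    rw [Matrix.mul_assoc, hAX, ← Matrix.mul_assoc, h1, Matrix.mul_assoc])
  have hcpos : 0 < c := by
    have h1 : Mᴴ * Hᵀ⁻¹ * M = c • H := by
      have h2 : A.map conj = H⁻¹ * Mᴴ := by
        rw [hA, Matrix.map_mul, hconj' M, hs, hconj', Matrix.transpose_nonsing_inv,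
          Matrix.transpose_transpose, hHpos.inv.isHermitian.eq]
      rw [h2, hA] at hc
      rw [← Matrix.mul_one H, ← Matrix.mul_smul, Matrix.mul_one H, ← hc, ← Matrix.mul_assoc,
        Matrix.mul_nonsing_inv_cancel_left _ _ hHd, Matrix.mul_assoc]
    have h2 := (hHpos.transpose.inv.conjTranspose_mul_mul_same
      (Matrix.mulVec_injective_iff_isUnit.mpr hMu)).trace_pos
    rw [h1, Matrix.trace_smul, smul_eq_mul] at h2
    exact (mul_pos_iff_of_pos_right hHpos.trace_pos).mp h2
  obtain ⟨r, hr, rfl⟩ : ∃ r : ℝ, 0 < r ∧ c = r :=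
    ⟨c.re, (Complex.pos_iff.mp hcpos).1, Complex.ext rfl (Complex.pos_iff.mp hcpos).2.symm⟩
  refine exists_real_of_conj_intertwine X (((√r : ℝ) : ℂ)⁻¹ • A) ?_ fun g => ?_
  · have h1 : (((√r : ℝ) : ℂ)⁻¹ • A).map conj = ((√r : ℝ) : ℂ)⁻¹ • A.map conj := by
      ext; simp
    rw [h1, smul_mul_smul_comm, hc, smul_smul, ← mul_inv, ← Complex.ofReal_mul,
      Real.mul_self_sqrt hr.le, inv_mul_cancel₀ (Complex.ofReal_ne_zero.mpr hr.ne'), one_smul]
  · rw [Matrix.smul_mul, Matrix.mul_smul, hAX]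

/-- An irreducible character afforded by real matrices has indicator `+1`. -/
theorem fsInd_eq_one_of_real_matrix {χ : G → ℂ} (hχ : IsIrrCharacter G χ)
    (Y : G →* Matrix ι ι ℝ) (hY : ∀ g, (((Y g).trace : ℝ) : ℂ) = χ g) : fsInd χ = 1 := by
  let X : G →* Matrix ι ι ℂ := (Complex.ofRealHom.mapMatrix).toMonoidHom.comp Y
  have hX : ∀ g, X g = (Y g).map Complex.ofRealHom := fun g => rfl
  have hchar : (matRep X).character = χ := by
    rw [character_matRep]
    funext g
    rw [← hY, hX, Matrix.trace, Matrix.trace]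
    simp
  have := isIrreducible_of_isIrrCharacter (matRep X) (hchar ▸ hχ)
  have hnt := nontrivial_of_isIrreducible (matRep X)
  have : Nonempty ι := by
    by_contra h
    rw [not_nonempty_iff] at h
    exact not_subsingleton (ι → ℂ) inferInstance
  rw [← hchar]
  refine (isInvForm_sum (matRep X) 1).fsInd_eq ?_ ?_
  · refine (Matrix.posDef_sum Finset.univ_nonempty fun g _ => ?_).isUnit.ne_zero
    rw [repMat_matRep, Matrix.mul_one,
      show (X g)ᵀ = (X g)ᴴ by ext; simp [hX]]
    exact Matrix.PosDef.conjTranspose_mul_self _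
      (Matrix.mulVec_injective_iff_isUnit.mpr ((Group.isUnit g).map X))
  · simp [formSum, Matrix.transpose_sum]

theorem fsInd_eq_one_iff_real_matrix {χ : G → ℂ} (hχ : IsIrrCharacter G χ) :
    fsInd χ = 1 ↔ ∃ (n : ℕ) (Y : G →* Matrix (Fin n) (Fin n) ℝ),
      ∀ g, (((Y g).trace : ℝ) : ℂ) = χ g := by
  refine ⟨fun h => ?_, fun ⟨_, Y, hY⟩ => fsInd_eq_one_of_real_matrix hχ Y hY⟩
  obtain ⟨n, ρ, hρ, rfl⟩ := hχ
  obtain ⟨Y, T, hT, hY⟩ := exists_real_of_fsInd_eq_one ρ h
  refine ⟨n, Y, fun g => ?_⟩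
  have hd : IsUnit T.det := (Matrix.isUnit_iff_isUnit_det T).mp hT
  rw [← trace_repMat, ← Matrix.nonsing_inv_mul_cancel_left T (repMat ρ g) hd, ← hY,
    Matrix.trace_mul_comm, Matrix.mul_nonsing_inv_cancel_right _ _ hd, Matrix.trace, Matrix.trace]
  simp

end Cfsg.Agent.Char
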