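import Cfsg.Agent.Char.Brauer
import Cfsg.Agent.Char.Irr
import Cfsg.Agent.Char.RepEquiv

/-!
# Characters afforded by representations over a subfield of `ℂ`; Brauer's splitting field theorem
-/

set_option autoImplicit false
set_option linter.dupNamespace false
set_option linter.unusedSectionVars false

open scoped ComplexConjugate
open Module

namespace Cfsg.Agent.Char
open Cfsg.Agent.Char

section General

variable {K : Type*} [Field K] {G : Type*} [Group G] {V W : Type*} [AddCommGroup V] [Module K V]
  [AddCommGroup W] [Module K W]

/-- Over any field, the character of a representation is the sum of the characters of two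
complementary subrepresentations. -/
theorem char_eq_add_of_isCompl_field [FiniteDimensional K V] {ρ : Representation K G V}
    (U U' : Subrepresentation ρ) (h : IsCompl U.toSubmodule U'.toSubmodule) :
    ρ.character = U.toRepresentation.character + U'.toRepresentation.character := by
  have e : (U.toRepresentation.prod U'.toRepresentation).Equiv ρ :=
    Representation.Equiv.mk (Submodule.prodEquivOfIsCompl _ _ h) (fun g => by
      ext v <;> simp [Representation.prod, Subrepresentation.toRepresentation])
  rw [← Representation.char_iso e]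
  ext g
  exact LinearMap.trace_prodMap' _ _

/-- Maschke's theorem over a field in which the group order is invertible. -/
theorem exists_isCompl_subrep_field [Finite G] [NeZero (Nat.card G : K)]
    {ρ : Representation K G V} (U : Subrepresentation ρ) :
    ∃ U' : Subrepresentation ρ, IsCompl U.toSubmodule U'.toSubmodule := by
  obtain ⟨U', hU'⟩ := exists_isCompl U
  refine ⟨U', ⟨?_, ?_⟩⟩
  · rw [disjoint_iff, ← Subrepresentation.toSubmodule_inf, hU'.disjoint.eq_bot]
    rfl
  · rw [codisjoint_iff, ← Subrepresentation.toSubmodule_sup, hU'.codisjoint.eq_top]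
    rfl

/-- The range of an injective intertwining map has the character of the source. -/
theorem char_range_of_injective {ρ : Representation K G V} {σ : Representation K G W}
    (f : σ.IntertwiningMap ρ) (hf : Function.Injective f) :
    f.range.toRepresentation.character = σ.character := by
  refine (Representation.char_iso (Representation.Equiv.mk
    (LinearEquiv.ofInjective f.toLinearMap hf) fun g => ?_)).symm
  ext w
  exact f.isIntertwining σ ρ g w

end General

section KChar

variable (K : Type) [Field K] [Algebra K ℂ] (G : Type*) [Group G]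

/-- `χ` is the character of a matrix representation over the subfield `K` of `ℂ`. -/
def IsKCharacter (χ : G → ℂ) : Prop :=
  ∃ (n : ℕ) (M : G →* Matrix (Fin n) (Fin n) K), χ = fun g => algebraMap K ℂ (M g).trace

variable {K G} {χ ψ : G → ℂ}

theorem isKCharacter_trace {ι : Type*} [Fintype ι] [DecidableEq ι] (M : G →* Matrix ι ι K) :
    IsKCharacter K G (fun g => algebraMap K ℂ (M g).trace) := by
  let e := Fintype.equivFin ι
  refine ⟨Fintype.card ι, (Matrix.reindexAlgEquiv K K e).toMonoidHom.comp M, ?_⟩
  funext g
  congr 1
  change _ = (Matrix.reindex e e (M g)).trace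
  simp only [Matrix.trace, Matrix.diag_apply, Matrix.reindex_apply, Matrix.submatrix_apply]
  exact (Equiv.sum_comp e.symm (fun i => M g i i)).symm

theorem isKCharacter_character {V : Type*} [AddCommGroup V] [Module K V] [FiniteDimensional K V]
    (ρ : Representation K G V) :
    IsKCharacter K G (fun g => algebraMap K ℂ (ρ.character g)) := by
  classical
  let b := finBasis K V
  have := isKCharacter_trace ((LinearMap.toMatrixAlgEquiv b).toMonoidHom.comp ρ)
  convert this using 3 with g
  exact LinearMap.trace_eq_matrix_trace K b (ρ g)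

theorem IsKCharacter.exists_rep (h : IsKCharacter K G χ) :
    ∃ (n : ℕ) (ρ : Representation K G (Fin n → K)),
      χ = fun g => algebraMap K ℂ (ρ.character g) := by
  obtain ⟨n, M, rfl⟩ := h
  refine ⟨n, (Matrix.toLinAlgEquiv' (R := K) (n := Fin n)).toMonoidHom.comp M, ?_⟩
  funext g
  congr 1
  exact (Matrix.trace_toLin'_eq (M g)).symm

theorem trace_mapMatrix {ι : Type*} [Fintype ι] [DecidableEq ι] (A : Matrix ι ι K) :
    ((algebraMap K ℂ).mapMatrix A).trace = algebraMap K ℂ A.trace := by
  simp [Matrix.trace, map_sum]

theorem IsKCharacter.isCharacter (h : IsKCharacter K G χ) : IsCharacter G χ := by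
  obtain ⟨n, M, rfl⟩ := h
  have := isCharacter_trace ((algebraMap K ℂ).mapMatrix.toMonoidHom.comp M)
  convert this using 2 with g
  exact (trace_mapMatrix (M g)).symm

theorem isKCharacter_zero : IsKCharacter K G 0 :=
  ⟨0, 1, by ext g; simp⟩

theorem IsKCharacter.add (h : IsKCharacter K G χ) (h' : IsKCharacter K G ψ) :
    IsKCharacter K G (χ + ψ) := by
  obtain ⟨n, ρ, rfl⟩ := h.exists_rep
  obtain ⟨m, σ, rfl⟩ := h'.exists_rep
  convert isKCharacter_character (ρ.prod σ) using 1
  ext g
  rw [Pi.add_apply, ← map_add]
  congr 1
  exact (LinearMap.trace_prodMap' (ρ g) (σ g)).symm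

theorem IsKCharacter.mul (h : IsKCharacter K G χ) (h' : IsKCharacter K G ψ) :
    IsKCharacter K G (χ * ψ) := by
  obtain ⟨n, ρ, rfl⟩ := h.exists_rep
  obtain ⟨m, σ, rfl⟩ := h'.exists_rep
  convert isKCharacter_character (ρ.tprod σ) using 1
  ext g
  rw [Pi.mul_apply, ← map_mul, Representation.char_tensor, Pi.mul_apply]

theorem IsKCharacter.nsmul (h : IsKCharacter K G χ) (n : ℕ) : IsKCharacter K G (n • χ) := by
  induction n with
  | zero => simpa using isKCharacter_zero
  | succ n ih => rw [succ_nsmul]; exact ih.add h

theorem IsKCharacter.comp {H : Type*} [Group H] (h : IsKCharacter K G χ) (f : H →* G) :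
    IsKCharacter K H (fun x => χ (f x)) := by
  obtain ⟨n, M, rfl⟩ := h
  exact ⟨n, M.comp f, rfl⟩

/-- A linear character with values in `K` is a `K`-character. -/
theorem isKCharacter_linear (lam : G →* ℂˣ) (h : ∀ g, ∃ k : K, algebraMap K ℂ k = lam g) :
    IsKCharacter K G (fun g => (lam g : ℂ)) := by
  choose c hc using h
  have hinj := (algebraMap K ℂ).injective
  let f : G →* K :=
    { toFun := c
      map_one' := hinj (by simp [hc])
      map_mul' := fun a b => hinj (by simp [hc]) }
  refine ⟨1, (Matrix.scalar (Fin 1)).toMonoidHom.comp f, ?_⟩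
  ext g
  simp [f, hc]

/-- The function induced from a `K`-character is a `K`-character. -/
theorem IsKCharacter.indFun [Fintype G] {H : Subgroup G} {θ : H → ℂ} (h : IsKCharacter K H θ) :
    IsKCharacter K G (indFun H θ) := by
  classical
  have hcl := h.isCharacter.isClassFunction
  obtain ⟨n, M, rfl⟩ := h
  convert isKCharacter_trace (indMatrix H M) using 1
  ext g
  rw [trace_indMatrix, indFun_eq_sum_quotient H hcl, map_sum]
  refine Finset.sum_congr rfl fun q _ => ?_
  by_cases hq : q.out⁻¹ * g * q.out ∈ H
  · rw [extHom_of_mem H M hq, extendByZero_of_mem H _ hq]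
  · rw [extHom_of_not_mem H M hq, extendByZero_of_not_mem H _ hq, Matrix.trace_zero, map_zero]

theorem charZero_of_algebra_complex (K : Type*) [Field K] [Algebra K ℂ] : CharZero K :=
  (algebraMap K ℂ).charZero

/-- The inner product of two `K`-characters is the dimension of the space of intertwining maps
over `K`. -/
theorem classInner_kcharacter [Fintype G] {V W : Type*} [AddCommGroup V] [Module K V]
    [FiniteDimensional K V] [AddCommGroup W] [Module K W] [FiniteDimensional K W]
    (ρ : Representation K G V) (σ : Representation K G W) :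
    classInner (fun g => algebraMap K ℂ (σ.character g)) (fun g => algebraMap K ℂ (ρ.character g))
      = finrank K (ρ.IntertwiningMap σ) := by
  have := charZero_of_algebra_complex K
  let : Invertible (Nat.card G : K) := invertibleOfNonzero (Nat.cast_ne_zero.mpr Nat.card_pos.ne')
  have h := congrArg (algebraMap K ℂ)
    (Representation.card_inv_mul_sum_char_mul_char_eq_finrank ρ σ)
  rw [map_natCast] at h
  rw [← h]
  simp only [classInner, map_mul, map_inv₀, map_natCast, map_sum,
    ← (isKCharacter_character ρ).isCharacter.map_inv]

theorem isKCharacter_sub_aux [Finite G] (n : ℕ) :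
    ∀ {V W : Type} [AddCommGroup V] [Module K V] [FiniteDimensional K V]
      [AddCommGroup W] [Module K W] [FiniteDimensional K W]
      (ρ : Representation K G V) (σ : Representation K G W), finrank K W = n →
      IsCharacter G ((fun g => algebraMap K ℂ (ρ.character g)) -
        fun g => algebraMap K ℂ (σ.character g)) →
      IsKCharacter K G ((fun g => algebraMap K ℂ (ρ.character g)) -
        fun g => algebraMap K ℂ (σ.character g)) := by
  have := charZero_of_algebra_complex K
  have : NeZero (Nat.card G : K) := ⟨Nat.cast_ne_zero.mpr Nat.card_pos.ne'⟩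
  have := Fintype.ofFinite G
  induction n using Nat.strong_induction_on with
  | _ n ih =>
    intro V W _ _ _ _ _ _ ρ σ hn hχ
    rcases subsingleton_or_nontrivial W with hW | hW
    · convert isKCharacter_character ρ using 1
      ext g
      simp [Representation.character, Subsingleton.elim (σ g) 0]
    obtain ⟨U₀, hU, hmin⟩ := exists_minimal_of_wellFoundedLT
      (fun U : Submodule K W => U ≠ ⊥ ∧ ∀ g, ∀ v ∈ U, σ g v ∈ U) ⟨⊤, top_ne_bot, by simp⟩
    let U : Subrepresentation σ := ⟨U₀, fun g v hv => hU.2 g v hv⟩
    have hUn : Nontrivial U₀ := Submodule.nontrivial_iff_ne_bot.mpr hU.1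
    -- a nonzero intertwining map `U → V`
    have h1 : Nontrivial (U.toRepresentation.IntertwiningMap σ) := by
      refine ⟨⟨⟨U₀.subtype, fun g => rfl⟩, 0, fun h0 => ?_⟩⟩
      obtain ⟨u, hu⟩ := exists_ne (0 : U₀)
      exact hu (Subtype.ext (congrArg (fun f : U.toRepresentation.IntertwiningMap σ => f u) h0))
    have hfin : ∀ {X : Type} [AddCommGroup X] [Module K X] [FiniteDimensional K X]
        (τ : Representation K G X), Module.Finite K (U.toRepresentation.IntertwiningMap τ) :=
      fun τ => Module.Finite.of_injective
        (Representation.IntertwiningMap.toLinearMapl U.toRepresentation τ)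
        (Representation.IntertwiningMap.toLinearMap_injective _ _)
    have h2 : Nontrivial (U.toRepresentation.IntertwiningMap ρ) := by
      have := hfin σ
      have := hfin ρ
      obtain ⟨m, hm⟩ := hχ.exists_nat_inner (isKCharacter_character U.toRepresentation).isCharacter
      rw [classInner_sub_left, classInner_kcharacter, classInner_kcharacter, sub_eq_iff_eq_add] at hm
      have h3 : finrank K (U.toRepresentation.IntertwiningMap ρ) =
          m + finrank K (U.toRepresentation.IntertwiningMap σ) := by exact_mod_cast hm
      have h4 : 0 < finrank K (U.toRepresentation.IntertwiningMap σ) := finrank_pos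
      exact nontrivial_of_finrank_pos (R := K) (by omega)
    obtain ⟨f, hf⟩ := exists_ne (0 : U.toRepresentation.IntertwiningMap ρ)
    have hinj : Function.Injective f := by
      refine (LinearMap.ker_eq_bot (f := f.toLinearMap)).mp ?_
      by_contra hker
      have hle : U₀ ≤ (LinearMap.ker f.toLinearMap).map U₀.subtype := by
        refine hmin ⟨?_, ?_⟩ (Submodule.map_subtype_le _ _)
        · intro h0
          apply hker
          apply Submodule.map_injective_of_injective U₀.injective_subtype
          rw [h0, Submodule.map_bot]
        · rintro g _ ⟨x, hx, rfl⟩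
          exact ⟨U.toRepresentation g x, f.ker.apply_mem_toSubmodule g hx, rfl⟩
      apply hf
      ext x
      obtain ⟨y, hy, hyx⟩ := hle x.2
      rw [← (show y = x from Subtype.ext hyx)]
      exact hy
    obtain ⟨V', hV'⟩ := exists_isCompl_subrep_field f.range
    obtain ⟨W', hW'⟩ := exists_isCompl_subrep_field U
    have hsub : ((fun g => algebraMap K ℂ (ρ.character g)) -
        fun g => algebraMap K ℂ (σ.character g)) =
        ((fun g => algebraMap K ℂ (V'.toRepresentation.character g)) -
        fun g => algebraMap K ℂ (W'.toRepresentation.character g)) := by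
      ext g
      rw [char_eq_add_of_isCompl_field _ _ hV', char_eq_add_of_isCompl_field _ _ hW',
        char_range_of_injective f hinj]
      simp
    rw [hsub] at hχ ⊢
    have hsum := Submodule.finrank_add_eq_of_isCompl hW'
    have hpos : 0 < finrank K U.toSubmodule := finrank_pos (M := U₀)
    exact ih _ (by omega) _ _ rfl hχ

/-- If the difference of two `K`-characters is a character, it is a `K`-character. -/
theorem IsKCharacter.sub [Finite G] (h : IsKCharacter K G χ) (h' : IsKCharacter K G ψ)
    (hs : IsCharacter G (χ - ψ)) : IsKCharacter K G (χ - ψ) := by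
  obtain ⟨n, ρ, rfl⟩ := h.exists_rep
  obtain ⟨m, σ, rfl⟩ := h'.exists_rep
  exact isKCharacter_sub_aux _ ρ σ rfl hs

variable (K G) in
/-- Differences of `K`-characters form an additive subgroup. -/
def kGenSubgroup : AddSubgroup (G → ℂ) where
  carrier := {θ | ∃ α β, IsKCharacter K G α ∧ IsKCharacter K G β ∧ θ = α - β}
  zero_mem' := ⟨0, 0, isKCharacter_zero, isKCharacter_zero, by simp⟩
  add_mem' := by
    rintro _ _ ⟨a, b, ha, hb, rfl⟩ ⟨c, d, hc, hd, rfl⟩
    exact ⟨_, _, ha.add hc, hb.add hd, by ring⟩
  neg_mem' := by
    rintro _ ⟨a, b, ha, hb, rfl⟩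
    exact ⟨b, a, hb, ha, by ring⟩

theorem IsKCharacter.mem_kGenSubgroup (h : IsKCharacter K G χ) : χ ∈ kGenSubgroup K G :=
  ⟨χ, 0, h, isKCharacter_zero, by simp⟩

theorem isKCharacter_of_mem_kGenSubgroup [Finite G] (h : χ ∈ kGenSubgroup K G)
    (hχ : IsCharacter G χ) : IsKCharacter K G χ := by
  obtain ⟨a, b, ha, hb, rfl⟩ := h
  exact ha.sub hb hχ

/-- Brauer's splitting field theorem: if `K` contains the roots of unity of order dividing the
exponent of `G`, every character is afforded by a representation over `K`. -/
theorem Cfsg.IsCharacter.isKCharacter [Finite G]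
    (hK : ∀ z : ℂ, z ^ Monoid.exponent G = 1 → ∃ k : K, algebraMap K ℂ k = z)
    (hχ : IsCharacter G χ) : IsKCharacter K G χ := by
  have := Fintype.ofFinite G
  refine isKCharacter_of_mem_kGenSubgroup (brauer_induction_mem _ ?_ hχ.isGen) hχ
  intro E p _ _ lam
  refine (isKCharacter_linear lam fun e => hK _ ?_).indFun.mem_kGenSubgroup
  rw [← Units.val_pow_eq_pow_val, ← map_pow,
    show e ^ Monoid.exponent G = 1 from Subtype.ext (Monoid.pow_exponent_eq_one (e : G)), map_one,
    Units.val_one]

/-- A representation whose character is a `K`-character is equivalent to a representation by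
matrices with entries in `K`. -/
theorem exists_equiv_of_isKCharacter [Finite G] {n : ℕ} (ρ : Representation ℂ G (Fin n → ℂ))
    (h : IsKCharacter K G ρ.character) :
    ∃ σ : Representation ℂ G (Fin n → ℂ), Nonempty (ρ.Equiv σ) ∧
      ∀ g i j, ∃ k : K, algebraMap K ℂ k = LinearMap.toMatrix' (σ g) i j := by
  obtain ⟨m, M, hM⟩ := h
  have hmn : m = n := by
    have := congrFun hM 1
    simpa using this.symm
  subst hmn
  let σ : Representation ℂ G (Fin m → ℂ) :=
    (Matrix.toLinAlgEquiv' (R := ℂ) (n := Fin m)).toMonoidHom.comp
      ((algebraMap K ℂ).mapMatrix.toMonoidHom.comp M)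
  have hσ : ∀ g, σ g = Matrix.toLin' ((algebraMap K ℂ).mapMatrix (M g)) := fun g => rfl
  refine ⟨σ, nonempty_equiv_of_character_eq ρ σ ?_, fun g i j => ⟨M g i j, ?_⟩⟩
  · rw [hM]
    ext g
    rw [Representation.character, hσ, Matrix.trace_toLin'_eq, trace_mapMatrix]
  · rw [hσ, LinearMap.toMatrix'_toLin']
    rfl

end KChar

end Cfsg.Agent.Char
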