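import Mathlib
import Cfsg.Agent.Char.RelGraph
import Cfsg.Agent.Char.Garrison
import Cfsg.Agent.Grp.CommPow

/-! Isaacs-Knutson Theorem B for solvable groups: `|cd(G|M)| ≤ 2` forces `M'' = 1`. -/

set_option autoImplicit false
set_option linter.unusedSectionVars false
set_option linter.style.haveILetI false

open Cfsg Cfsg.Agent.Char Subgroup Cfsg.Agent.PLocal.Amb
open scoped commutatorElement

namespace Cfsg.Agent.Char

universe u

section
variable {G : Type*} [Group G] [Finite G]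

/-- the permutation character trick -/
theorem le_of_perm (N H : Subgroup G)
    (h : ∀ ψ : IrrCharacter G, charDegree ψ.1 < H.index → H.normalCore ≤ charKer ψ.1 →
      N ≤ charKer ψ.1) : N ≤ H := by
  classical
  letI := Fintype.ofFinite G
  intro x hx
  have hφ := isCharacter_permChar_sub_one (G := G) (G ⧸ H)
  have hfix : ∀ g : G, g ∈ H.normalCore ↔ MulAction.fixedBy (G ⧸ H) g = Set.univ := by
    intro g
    rw [Subgroup.normalCore_eq_ker, MonoidHom.mem_ker, Set.eq_univ_iff_forall, Equiv.ext_iff]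
    rfl
  have h1 : (permChar G (G ⧸ H) - fun _ => 1 : G → ℂ) x =
      (permChar G (G ⧸ H) - fun _ => 1 : G → ℂ) 1 := by
    rw [hφ.isClassFunction.apply_eq_sum_irr, hφ.isClassFunction.apply_eq_sum_irr]
    refine Finset.sum_congr rfl fun ψ _ => ?_
    by_cases h0 : classInner (permChar G (G ⧸ H) - fun _ => 1) ψ = 0
    · rw [h0, zero_mul, zero_mul]
    have h2 := hφ.one_le_of_inner_ne_zero ψ.2 h0
    rw [← coe_charDegree_irr, Pi.sub_apply, permChar_one, ← index_eq_card] at h2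
    have h3 : charDegree (ψ : G → ℂ) < H.index := by
      have : (charDegree (ψ : G → ℂ) : ℝ) ≤ H.index - 1 := by simpa using h2
      have : (charDegree (ψ : G → ℂ) : ℝ) < H.index := by linarith
      exact_mod_cast this
    rw [(mem_charKer_irr ψ).mp (h ψ h3 (fun y hy => (mem_charKer_irr ψ).2
      (apply_eq_of_inner_ne_zero hφ ψ.2 h0 ?_)) hx)]
    rw [Pi.sub_apply, Pi.sub_apply, permChar_apply, permChar_apply, (hfix y).1 hy,
      (hfix 1).1 (one_mem _)]
  rw [Pi.sub_apply, Pi.sub_apply, sub_left_inj, permChar_one, permChar_apply,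
    Nat.cast_inj] at h1
  exact H.normalCore_le ((hfix x).2 ((Set.eq_univ_iff_ncard _).mpr h1))

theorem exists_chief_between [Group.IsSolvable G] (L M : Subgroup G) [L.Normal] [M.Normal]
    (hL : ¬ M ≤ L) (hLM : L ≤ M) : ∃ (q : ℕ) (K : Subgroup G), q.Prime ∧ K.Normal ∧ L < K ∧ K ≤ M ∧
      IsPGroup q (K.map (QuotientGroup.mk' L)) ∧
      ∀ W : Subgroup G, W.Normal → L ≤ W → W ≤ K → W = L ∨ W = K := by
  have hs := QuotientGroup.mk'_surjective L
  have := Normal.map ‹M.Normal› _ hs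
  have hk : ∀ {W : Subgroup G}, L ≤ W → (W.map (QuotientGroup.mk' L)).comap (QuotientGroup.mk' L) = W :=
    fun h => comap_map_eq_self (by rwa [QuotientGroup.ker_mk'])
  obtain ⟨q, R, hq, hR, h0, hRM, -, -, hP, hmin⟩ := Grp.exists_minNormal_elementaryAbelian_le
    (M.map (QuotientGroup.mk' L)) fun e => hL (by
      rwa [Subgroup.map_eq_bot_iff, QuotientGroup.ker_mk'] at e)
  have hle : L ≤ R.comap (QuotientGroup.mk' L) := by
    simpa using ker_le_comap (QuotientGroup.mk' L) R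
  refine ⟨q, R.comap (QuotientGroup.mk' L), hq, inferInstance, lt_of_le_of_ne hle fun h => h0 ?_,
    hk hLM ▸ comap_mono hRM, by rwa [map_comap_eq_self_of_surjective hs], fun W hW h1 h2 => ?_⟩
  · rw [← map_comap_eq_self_of_surjective hs R, ← h]
    simp
  · rcases hmin _ (hW.map _ hs) (map_le_iff_le_comap.2 h2) with h | h
    · exact Or.inl (le_antisymm (by rwa [Subgroup.map_eq_bot_iff, QuotientGroup.ker_mk'] at h) h1)
    · exact Or.inr (by rw [← h, hk h1])

/-- a relative version of Broline's theorem -/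
theorem exists_larger_rel [Group.IsSolvable G] {p : ℕ} [hp : Fact p.Prime] (M F : Subgroup G) [M.Normal]
    [F.Normal] (hFM : F ≤ M) (hF : IsPGroup p F)
    (hmax : ∀ W : Subgroup G, W.Normal → W ≤ M → IsPGroup p W → W ≤ F)
    (hq : ∀ q : ℕ, q.Prime → q ≠ p → ∀ W : Subgroup G, W.Normal → IsPGroup q W → W = ⊥)
    (χ : IrrCharacter G) (h1 : F ≤ charKer χ.1) (h2 : ¬ M ≤ charKer χ.1) :
    ∃ ψ : IrrCharacter G, ¬ M ≤ charKer ψ.1 ∧ charDegree χ.1 < charDegree ψ.1 := by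
  classical
  by_contra hc
  push Not at hc
  obtain ⟨q, R, hq', hR, hFR, hRM, hP, hmin⟩ := exists_chief_between F M (fun e => h2 (e.trans h1)) hFM
  have := Fact.mk hq'
  have hqp : q ≠ p := by
    rintro rfl
    refine hFR.not_ge (hmax R hR hRM ?_)
    have := hP.comap_of_ker_isPGroup (QuotientGroup.mk' F) (by rwa [QuotientGroup.ker_mk'])
    rwa [comap_map_eq_self (by rw [QuotientGroup.ker_mk']; exact hFR.le)] at this
  obtain ⟨T, hT⟩ := exists_isSyl q R
  have hKT : F ⊔ T = R := by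
    have e := (hT.map (QuotientGroup.mk' F)).eq hP (map_mono hT.le) le_rfl
    have := congrArg (comap (QuotientGroup.mk' F)) e
    rw [comap_map_eq, comap_map_eq, QuotientGroup.ker_mk', sup_eq_left.2 hFR.le, sup_comm] at this
    exact this.symm
  have hTH : T ≤ 𝐍[T] := le_normalizer
  have htop : F ⊔ 𝐍[T] = ⊤ := eq_top_iff.2 ((sup_normalizer_eq_top_of_isSyl hT).ge.trans
    (sup_le (hKT.ge.trans (sup_le_sup_left hTH _)) le_sup_right))
  letI := Fintype.ofFinite G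
  letI := Fintype.ofFinite 𝐍[T]
  have hθ := isIrr_restrict_of_sup_eq_top χ.2 F 𝐍[T] (fun k hk => (mem_charKer_irr χ).mp (h1 hk)) htop
  have h3 : ∀ x ∈ 𝐍[T], χ.1 x ≠ 0 → x ∈ 𝐍[T].normalCore := fun x hx hx0 => by
    refine mem_normalCore_of_forall_restrict_eq 𝐍[T] hθ (fun ψ hψ h4 => ?_) (x := ⟨x, hx⟩) hx0
    refine restrict_eq_of_over_of_le 𝐍[T] hψ.isCharacter hθ h4 (hc ⟨ψ, hψ⟩ fun h5 => h2 fun m hm => ?_)
    obtain ⟨f, hf, y, hy, rfl⟩ := exists_mul_of_sup_eq_top htop m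
    refine mul_mem (h1 hf) ((mem_charKer_irr χ).2 ?_)
    exact apply_eq_of_inner_ne_zero (hψ.isCharacter.restrict 𝐍[T]) hθ h4 (z := ⟨y, hy⟩)
      ((mem_charKer_iff hψ.isCharacter).mp (h5 ((M.mul_mem_cancel_left (hFM hf)).1 hm)))
  have hne : ∀ x ∈ charKer χ.1, χ.1 x ≠ 0 := fun x hx => by
    rw [(mem_charKer_irr χ).mp hx]; exact χ.2.one_ne_zero
  obtain ⟨r, hr, hrF, hr0⟩ : ∃ r ∈ R, r ∉ F ∧ χ.1 r ≠ 0 := by
    by_cases h5 : R ≤ charKer χ.1
    · obtain ⟨n, hn, hnK⟩ := SetLike.exists_of_lt hFR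
      exact ⟨n, hn, hnK, hne n (h5 hn)⟩
    by_contra h6
    push Not at h6
    letI := Fintype.ofFinite R
    obtain ⟨n, hn, hnK⟩ := SetLike.not_le_iff_exists.1 h5
    have h7 := sum_normal_eq_zero χ.2 R ⟨n, hn, fun e => hnK ((mem_charKer_irr χ).mpr e)⟩
    rw [← Finset.sum_filter_of_ne (p := fun x : R => (x : G) ∈ F), Finset.sum_congr rfl
      (g := fun _ => (χ : G → ℂ) 1)
      (fun x hx => (mem_charKer_irr χ).mp (h1 (Finset.mem_filter.mp hx).2)), Finset.sum_const,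
      nsmul_eq_mul] at h7
    · refine mul_ne_zero (Nat.cast_ne_zero.mpr (Finset.card_ne_zero.mpr ⟨1, ?_⟩))
        χ.2.one_ne_zero h7
      simp
    · exact fun x _ hx => by_contra fun h8 => hx (h6 x x.2 h8)
  rcases hmin (F ⊔ (R ⊓ 𝐍[T].normalCore)) inferInstance le_sup_left (sup_le hFR.le inf_le_left)
    with h4 | h4
  · obtain ⟨f, hf, y, hy, rfl⟩ := exists_mul_of_sup_eq_top htop r
    rw [mem_charKer_def.mp (h1 hf)] at hr0
    exact hrF (mul_mem hf (h4.le (mem_sup_right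
      ⟨(R.mul_mem_cancel_left (hFR.le hf)).1 hr, h3 y hy hr0⟩)))
  · have h5 : T ≤ R ⊓ 𝐍[T].normalCore := fun t ht => by
      obtain ⟨a, ha, v, hv, e⟩ := (mem_sup_of_le_normalizer_left (N := F) (H := R ⊓ 𝐍[T].normalCore)
        (by simp [normalizer_eq_top])).mp (h4.ge (hT.le ht))
      refine ⟨hT.le ht, e ▸ mul_mem (h3 a ?_ (hne a (h1 ha))) hv.2⟩
      rw [eq_mul_inv_of_mul_eq e.symm]
      exact mul_mem (hTH ht) (inv_mem (𝐍[T].normalCore_le hv.2))
    have h6 : 𝐍[T] = ⊤ := eq_top_iff.mpr ((sup_normalizer_eq_top_of_isSyl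
      (hT.mono h5 inf_le_left)).ge.trans (sup_le (inf_le_right.trans 𝐍[T].normalCore_le) le_rfl))
    rw [hq q hq' hqp T (normalizer_eq_top_iff.1 h6) hT.pgrp, sup_bot_eq] at hKT
    exact hFR.ne hKT

theorem rt_comm_le {p : ℕ} [hp : Fact p.Prime] (M F K : Subgroup G) [F.Normal] [K.Normal] (hFM : F ≤ M)
    (hF : IsPGroup p F) (hi : ¬ p ∣ F.relIndex M) (h1 : ⁅M, M⁆ ≤ F) (h2 : ⁅M, F⁆ ≤ K) : ⁅M, M⁆ ≤ K := by
  rw [commutator_le]
  intro a ha b hb
  have hc := h1 (commutator_mem_commutator ha hb)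
  have key : ∀ m ∈ M, ∀ f ∈ F, Commute (QuotientGroup.mk' K m) (QuotientGroup.mk' K f) := fun m hm f hf => by
    rw [← commutatorElement_eq_one_iff_commute, ← map_commutatorElement]
    exact (QuotientGroup.eq_one_iff _).2 (h2 (commutator_mem_commutator hm hf))
  have e1 := Grp.CommPow.commutator_pow_left (x := QuotientGroup.mk' K a) (y := QuotientGroup.mk' K b)
    (by rw [← map_commutatorElement]; exact (key a ha _ hc).symm) (F.relIndex M)
  have : (F.subgroupOf M).Normal := inferInstance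
  have e2 : a ^ F.relIndex M ∈ F := pow_index_mem (H := F.subgroupOf M) ⟨a, ha⟩
  rw [← map_pow, commutatorElement_eq_one_iff_commute.2 (key b hb _ e2).symm,
    ← map_commutatorElement] at e1
  obtain ⟨k, hk⟩ := hF ⟨_, hc⟩
  refine (QuotientGroup.eq_one_iff _).1 (RG.eq_one_of_pows (k := k) hp.out hi ?_ e1.symm)
  rw [← QuotientGroup.mk_pow, show ⁅a, b⁆ ^ p ^ k = 1 from congrArg Subtype.val hk]
  rfl

/-- the final contradiction -/
theorem rt_final {p q x : ℕ} [hp : Fact p.Prime] (hq : q.Prime) (M F : Subgroup G) [M.Normal] [F.Normal]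
    (hFM : F ≤ M) (hF : IsPGroup p F) (hi : ¬ p ∣ F.relIndex M) (hqi : q ∣ F.relIndex M)
    (h1 : ⁅M, M⁆ ≤ F) (θ : IrrCharacter F) (hθ : charDegree θ.1 ≠ 1) (hinv : M ≤ inertia F θ.1)
    (h2 : ∀ χ : IrrCharacter G, ¬ ⁅F, F⁆ ≤ charKer χ.1 → charDegree χ.1 = x)
    (h3 : ∀ χ : IrrCharacter G, F ≤ charKer χ.1 → ¬ M ≤ charKer χ.1 → charDegree χ.1 = x) : False := by
  classical
  letI := Fintype.ofFinite G
  letI := Fintype.ofFinite M
  letI := Fintype.ofFinite F
  have hqp : ¬ q ∣ p := fun e => hi ((Nat.prime_dvd_prime_iff_eq hq hp.out).1 e ▸ hqi)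
  obtain ⟨n, hn⟩ := hF.exists_card_eq
  have hqn : ∀ {d}, d ∣ Nat.card F → ¬ q ∣ d := fun hd e => hqp (hq.dvd_of_dvd_pow (hn ▸ e.trans hd))
  have hcop : ∀ {d}, d ∣ Nat.card F → (F.relIndex M).Coprime d := fun hd =>
    Nat.Coprime.coprime_dvd_right hd (hn ▸ ((hp.out.coprime_iff_not_dvd.2 hi).symm.pow_right n))
  have hpθ : p ∣ charDegree θ.1 := by
    obtain ⟨j, -, hj⟩ := (Nat.dvd_prime_pow hp.out).1 (hn ▸ charDegree_irr_dvd_card θ)
    rw [hj] at hθ ⊢
    exact dvd_pow_self p fun e => hθ (by rw [e, pow_zero])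
  obtain ⟨φ, ⟨hφ, hdet⟩, -⟩ := exists_ext_of_coprime hFM (by simp [normalizer_eq_top]) θ
    (fun s hs g g' e => by
      have := (mem_inertia' F).1 (hinv hs) g
      rwa [show g' = ⟨s * g * s⁻¹, _⟩ from Subtype.ext e])
    ((hcop (detOrder_dvd_card _)).mul_right (hcop (charDegree_irr_dvd_card θ)))
  have hdeg : charDegree φ.1 = charDegree θ.1 := charDegree_congr_one (hφ 1)
  have hreg : RG.PReg q φ.1 := ⟨φ.2, hdeg ▸ hqn (charDegree_irr_dvd_card θ), detOrder φ.1,
    hdet ▸ hqn (detOrder_dvd_card _), fun y => by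
      rw [← coe_detHom, ← Units.val_pow_eq_pow_val, ← MonoidHom.pow_apply, detOrder_eq_orderOf,
        pow_orderOf_eq_one]
      rfl⟩
  obtain ⟨ρ, hρ, hρ1⟩ := RG.exists_pLin (N := M) hq (hqi.trans (index_dvd_of_le fun y hy =>
    h1 (map_subtype_commutator M ▸ mem_map_of_mem M.subtype hy)))
  have hρF : ∀ f : F, ρ ⟨f, hFM f.2⟩ = 1 := fun f => by
    obtain ⟨k, hk⟩ := hρ
    refine Units.ext (RG.eq_one_of_pows hq (hqn dvd_rfl) (hk _) ?_)
    rw [← Units.val_pow_eq_pow_val, ← map_pow,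
      show (⟨f, hFM f.2⟩ : M) ^ Nat.card F = 1 from Subtype.ext (congrArg Subtype.val (pow_card_eq_one' (x := f)) :),
      map_one, Units.val_one]
  have hρi : IsIrrCharacter M fun y => (ρ y : ℂ) := isIrrCharacter_hom ρ
  obtain ⟨d, hd⟩ := RG.exists_lies (N := M) (RG.isIrr_tw φ.2 ρ)
  have e1 := hd.dvd (RG.isIrr_tw φ.2 ρ)
  obtain ⟨χ, hχ, rfl⟩ := hd
  rw [h2 χ fun h => hθ (charDegree_eq_one_of_commutator_le F χ.2.isCharacter θ ?_ h),
    RG.charDegree_tw, hdeg] at e1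
  swap
  · refine inner_comp_ne_zero_of_sub (inclusion hFM) (RG.isIrr_tw φ.2 ρ).isCharacter
      ((χ.2.isCharacter.restrict M).sub_irr (RG.isIrr_tw φ.2 ρ) hχ) θ.2.isCharacter ?_
    have : (fun f : F => RG.tw φ.1 ρ (inclusion hFM f)) = θ.1 := funext fun f => by
      change φ.1 ⟨f, hFM f.2⟩ * ρ ⟨f, hFM f.2⟩ = _
      rw [hφ, hρF, Units.val_one, mul_one]
    rw [this, θ.2.inner_self]
    exact one_ne_zero
  have e2 := (mul_dvd_mul_right (index_dvd_of_le (RG.inertia_tw_le hq hreg hρ)) _).trans e1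
  set I := inertia M fun y => (ρ y : ℂ) with hI
  have hMI : M ≤ I := le_inertia M hρi.isClassFunction
  letI := Fintype.ofFinite I
  obtain ⟨P, hP⟩ := exists_isSyl p I
  obtain ⟨η, hη, hη2⟩ := exists_over_not_dvd_of_invBy hMI hP.le hP.pgrp (by simp [normalizer_eq_top])
    hP.not_dvd_relIndex ⟨_, hρi⟩
    (fun s hs g g' e => by
      have := (mem_inertia' M).1 (hP.le hs) g
      rwa [show g' = ⟨s * g * s⁻¹, _⟩ from Subtype.ext e])
    (by
      rw [charDegree_eq_of_one_eq (n := 1) (by simp)]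
      exact hp.out.one_lt.ne' ∘ Nat.dvd_one.1)
    (by
      obtain ⟨k, hk⟩ := hρ
      change ¬ p ∣ detOrder fun y => (ρ y : ℂ)
      rw [detOrder_eq_orderOf, detHom_hom]
      intro e
      have : orderOf ρ ∣ q ^ k := orderOf_dvd_of_pow_eq_one (MonoidHom.ext fun y => Units.ext (by
        simpa using hk y))
      exact hqp ((Nat.prime_dvd_prime_iff_eq hp.out hq).1 (hp.out.dvd_of_dvd_pow (e.trans this)) ▸ dvd_rfl))
  rw [nmult_ne_zero_iff] at hη
  have hξ := isIrr_indFun_of_inertia_le hMI η.2 hρi le_rfl hη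
  have hξ2 : classInner (fun n : M => indFun I η.1 n) (fun y => (ρ y : ℂ)) ≠ 0 := by
    rwa [classInner_restrict_indFun_of_inertia_le hMI η.2 hρi le_rfl hη]
  have e3 := h3 ⟨_, hξ⟩ (le_charKer_of_over F hFM hξ hρi hξ2 fun y hy =>
    (mem_charKer_iff hρi.isCharacter).2 (by simpa using hρF ⟨y, hy⟩)) fun h => hρ1 (MonoidHom.ext fun y => by
      simpa using (mem_charKer_iff hρi.isCharacter).1
        (le_charKer_restrict M hξ.isCharacter hρi hξ2 h (x := y) y.2))
  rw [show charDegree (⟨_, hξ⟩ : IrrCharacter G).1 = I.index * charDegree η.1 from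
    charDegree_eq_of_one_eq (by
      change indFun I η.1 1 = _
      rw [indFun_one, ← coe_charDegree_irr]; push_cast; ring)] at e3
  rw [← e3] at e2
  exact hη2 (hpθ.trans (Nat.dvd_of_mul_dvd_mul_left (Nat.pos_of_ne_zero index_ne_zero_of_finite) e2))

theorem rt_core [Group.IsSolvable G] {p x y : ℕ} [hp : Fact p.Prime] (M : Subgroup G) [M.Normal]
    (hq : ∀ q : ℕ, q.Prime → q ≠ p → ∀ W : Subgroup G, W.Normal → IsPGroup q W → W = ⊥) (hxy : x ≤ y)
    (h : ∀ χ : IrrCharacter G, ¬ M ≤ charKer χ.1 → charDegree χ.1 = x ∨ charDegree χ.1 = y) :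
    ∀ a ∈ ⁅M, M⁆, ∀ b ∈ ⁅M, M⁆, a * b = b * a := by
  classical
  letI := Fintype.ofFinite G
  set F := M ⊓ pCore p G with hFd
  letI := Fintype.ofFinite F
  have hFM : F ≤ M := inf_le_left
  have hF : IsPGroup p F := (isPGroup_pCore' p G).to_le inf_le_right
  have hmax : ∀ W : Subgroup G, W.Normal → W ≤ M → IsPGroup p W → W ≤ F := fun W _ h1 h2 =>
    le_inf h1 (le_pCore' h2)
  have hz : ∀ χ : IrrCharacter G, F ≤ charKer χ.1 → ¬ M ≤ charKer χ.1 → charDegree χ.1 = x := by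
    intro χ h1 h2
    obtain ⟨ψ, h3, h4⟩ := exists_larger_rel M F hFM hF hmax hq χ h1 h2
    rcases h χ h2 with a | a <;> rcases h ψ h3 with b | b <;> omega
  have hM' : ⁅M, M⁆ ≤ F := commutator_le_of_rel_one F M hz
  have hinv : ∀ (θ : IrrCharacter F) (χ : IrrCharacter G), classInner (fun f : F => χ.1 f) θ.1 ≠ 0 →
      charDegree χ.1 = x → M ≤ inertia F θ.1 := fun θ χ h1 h2 => le_of_perm _ _ fun ψ h3 h4 => by
    by_contra h5
    obtain ⟨e, he, -, h6⟩ := exists_charDegree_eq_of_over F χ.2 θ.2 h1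
    rw [hz ψ ((normal_le_normalCore.2 (le_inertia F θ.2.isClassFunction)).trans h4) h5, ← h2, h6] at h3
    exact h3.not_ge ((Nat.le_mul_of_pos_left _ he).trans (Nat.le_mul_of_pos_right _ (charDegree_irr_pos θ)))
  have hi : ¬ p ∣ F.relIndex M := by
    obtain ⟨T, hT, hFT⟩ := exists_isSyl_ge hF hFM
    have e : pCoreOf p M = T := hT.eq_pCoreOf (Subgroup.le_normalizer_iff_commutator_le_right.2
      ((commutator_mono le_rfl hT.le).trans (hM'.trans hFT)))
    have hn : T.Normal := normalizer_eq_top_iff.1 (eq_top_iff.2 (e ▸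
      (normalizer_eq_top M).ge.trans (normalizer_le_normalizer_pCoreOf p M)))
    rw [le_antisymm hFT (hmax T hn hT.le hT.pgrp)]
    exact hT.not_dvd_relIndex
  have hb : ∀ a ∈ (⊥ : Subgroup G), ∀ b ∈ (⊥ : Subgroup G), a * b = b * a := fun a ha b _ => by
    rw [mem_bot.1 ha, one_mul, mul_one]
  by_cases h1 : F.relIndex M = 1
  · exact comm_commutator_of_rel_two M ⊥ hb ((hF.to_le (relIndex_eq_one.1 h1)).map _) h
  obtain ⟨q, hq', hqi⟩ := Nat.exists_prime_and_dvd h1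
  by_cases hab : ∀ a : F, ∀ b : F, a * b = b * a
  · exact fun a ha b hb => congrArg Subtype.val (hab ⟨a, hM' ha⟩ ⟨b, hM' hb⟩)
  have hmin : ∀ m n : ℕ, (∀ k, p ^ k ∣ m → p ^ k ∣ n) → (∀ χ : IrrCharacter G, ¬ M ≤ charKer χ.1 →
      charDegree χ.1 = m ∨ charDegree χ.1 = n) → ∀ χ : IrrCharacter G, charDegree χ.1 = m →
      ⁅F, F⁆ ≤ charKer χ.1 := fun m n h2 h3 χ h4 =>
    commutator_le_charKer_of_min F ⊥ hb (hF.map _) χ fun ψ h5 k hk => by
      rcases h3 ψ fun h6 => h5 (hFM.trans h6) with e | e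
      · rwa [e, ← h4]
      · exact e ▸ h2 k (h4 ▸ hk)
  rcases pow_dvd_total hp.out x y with h2 | h2
  · refine comm_of_rel_one (n := y) _ fun χ hχ => (h χ fun h3 =>
      hχ ((commutator_le_left M M).trans h3)).resolve_left fun e => hχ ?_
    obtain ⟨μ, hμ, h3⟩ := exists_irr_inner_restrict_ne_zero F χ.2
    have h4 := hinv ⟨μ, hμ⟩ χ h3 e
    have h5 := charDegree_eq_one_of_commutator_le F χ.2.isCharacter ⟨μ, hμ⟩ h3 (hmin x y h2 h χ e)
    obtain ⟨lam, hl⟩ := exists_hom_of_isCharacter_one hμ.isCharacter ((charDegree_eq_one_iff hμ.isCharacter).1 h5)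
    have := charKer_normal χ.2.isClassFunction
    refine rt_comm_le M F _ hFM hF hi hM' (le_charKer_of_over _ (commutator_le_right M F) χ.2 hμ h3 ?_)
    have h6 : ⁅M, F⁆ ≤ lam.ker.map F.subtype := by
      rw [commutator_le]
      intro m hm f hf
      have h7 := (mem_inertia' F).1 (h4 hm) ⟨f, hf⟩
      refine ⟨(⟨m * f * m⁻¹, Normal.conj_mem inferInstance f hf m⟩ : F) * (⟨f, hf⟩ : F)⁻¹, ?_, rfl⟩
      rw [SetLike.mem_coe, MonoidHom.mem_ker, map_mul, map_inv, mul_inv_eq_one]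
      simp only [hl] at h7
      exact Units.ext h7
    intro z hz
    obtain ⟨w, hw, e⟩ := h6 hz
    rw [mem_charKer_iff hμ.isCharacter, ← (Subtype.ext e : w = z), hl]
    simpa using hw
  · push Not at hab
    obtain ⟨θ, hθ⟩ := exists_charDegree_ne_one hab
    have h3 : ∀ χ : IrrCharacter G, ¬ ⁅F, F⁆ ≤ charKer χ.1 → charDegree χ.1 = x := fun χ hχ =>
      (h χ fun h3 => hχ ((commutator_le_left F F).trans (hFM.trans h3))).resolve_right fun e =>
        hχ (hmin y x h2 (fun ψ hψ => (h ψ hψ).symm) χ e)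
    obtain ⟨χ, hχ, h4⟩ := exists_irr_over F θ.2
    exact (rt_final hq' M F hFM hF hi hqi hM' θ hθ (hinv θ ⟨χ, hχ⟩ h4 (h3 _ fun h5 =>
      hθ (charDegree_eq_one_of_commutator_le F hχ.isCharacter θ h4 h5))) h3 hz).elim

end

/-- Isaacs-Knutson Theorem B (solvable case) -/
theorem rel_two (G : Type u) [Group G] [Finite G] : Group.IsSolvable G → ∀ (M : Subgroup G) [M.Normal]
    {x y : ℕ}, (∀ χ : IrrCharacter G, ¬ M ≤ charKer χ.1 → charDegree χ.1 = x ∨ charDegree χ.1 = y) →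
    ∀ a ∈ ⁅M, M⁆, ∀ b ∈ ⁅M, M⁆, a * b = b * a := by
  induction hk : Nat.card G using Nat.strong_induction_on generalizing G with
  | _ k ih =>
    intro hs M _ x y h a ha b hb
    by_contra hab
    have hV : ∀ W : Subgroup G, W.Normal → W ≠ ⊥ → ⁅a, b⁆ ∈ W := fun W _ hW => by
      have hsu := QuotientGroup.mk'_surjective W
      have := Normal.map ‹M.Normal› _ hsu
      have h1 := ih _ (hk ▸ Grp.card_quotient_lt W hW) (G ⧸ W) rfl inferInstance
        (M.map (QuotientGroup.mk' W)) (x := x) (y := y) fun ψ hψ => by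
          rw [← charDegree_inflateIrr _ hsu]
          exact h _ (by rwa [le_charKer_inflateIrr])
      rw [← map_commutator] at h1
      rw [← QuotientGroup.eq_one_iff, ← QuotientGroup.mk'_apply, map_commutatorElement]
      exact commutatorElement_eq_one_iff_mul_comm.2 (h1 _ ⟨a, ha, rfl⟩ _ ⟨b, hb, rfl⟩)
    have : Nontrivial G := ⟨_, _, hab⟩
    obtain ⟨p, W, hp, hW, hW0, -, -, hP, -⟩ := Grp.exists_minNormal_elementaryAbelian G
    have := Fact.mk hp
    have hq : ∀ q : ℕ, q.Prime → q ≠ p → ∀ W : Subgroup G, W.Normal → IsPGroup q W → W = ⊥ := by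
      intro q hq hqp U hU hQ
      by_contra h0
      have := Fact.mk hq
      exact hab (commutatorElement_eq_one_iff_mul_comm.1 (disjoint_def.1
        (IsPGroup.disjoint_of_ne q p hqp U W hQ hP) (hV U hU h0) (hV W hW hW0)))
    rcases le_total x y with hxy | hxy
    · exact hab (rt_core M hq hxy h a ha b hb)
    · exact hab (rt_core M hq hxy (fun χ hχ => (h χ hχ).symm) a ha b hb)

end Cfsg.Agent.Char
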